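import Mathlib
import Cfsg.Agent.Lib.Helper5.Dk9
import Cfsg.Agent.Lib.Helper1.Coprime

set_option autoImplicit false
set_option linter.unusedSimpArgs false

namespace Cfsg.Agent.Lib.Helper5.Dk

variable {F : Type*} [Field F] (K : Subgroup (S2 F))

section main

variable {p : ℕ} [hpF : Fact p.Prime] [CharP F p] (hp2 : p ≠ 2) {a₀ : F} (ha₀ : a₀ ≠ 0)
  (hx : xx a₀ ∈ K)

variable [Finite K]

include ha₀ hp2 hx in
theorem count_h1 (hy : ∃ y : K, ga (y : S2 F) ≠ 0) (hBC : BK K ≤ Cn (⟨xx a₀, hx⟩ : K)) :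
    Nat.card (UK K) = 3 ∧ Nat.card K = 12 * Nat.card (ZK K) := by
  classical
  obtain ⟨k, hk⟩ : ∃ k, k = Nat.card K := ⟨_, rfl⟩
  obtain ⟨z, hz⟩ : ∃ z, z = Nat.card (ZK K) := ⟨_, rfl⟩
  obtain ⟨a, ha⟩ : ∃ a, a = Nat.card (UK K) := ⟨_, rfl⟩
  obtain ⟨n, hn⟩ : ∃ n, n = (BK K).index := ⟨_, rfl⟩
  obtain ⟨cB, hcB⟩ : ∃ cB, cB = Nat.card (BK K) := ⟨_, rfl⟩
  obtain ⟨s, hs⟩ : ∃ s, s = (SS K).ncard := ⟨_, rfl⟩
  obtain ⟨t₁, ht₁⟩ : ∃ t₁, t₁ = (cls (ZK K) (⟨xx a₀, hx⟩ : K)).ncard := ⟨_, rfl⟩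
  obtain ⟨h, hh⟩ : ∃ h, h = (Cn (⟨xx a₀, hx⟩ : K)).relIndex (BK K) := ⟨_, rfl⟩
  rw [← ha, ← hk, ← hz]
  have hzpos : 1 ≤ z := by rw [hz]; exact Nat.card_pos
  have hz2 : z = 1 ∨ z = 2 := by rw [hz]; exact card_ZK K
  have hcBpos : 0 < cB := by rw [hcB]; exact Nat.card_pos
  have ha3 : 3 ≤ a := by
    have h1 := (isPGroup_UK (p := p) K).card_eq_or_dvd
    have hp3 : 3 ≤ p := by
      have := hpF.out.two_le
      omega
    rcases h1 with h1 | h1
    · exfalso
      have h2 : (UK K) = ⊥ := (Subgroup.card_eq_one).mp h1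
      have h3 : (⟨xx a₀, hx⟩ : K) ∈ UK K := xx_mem_Us a₀
      rw [h2, Subgroup.mem_bot] at h3
      have h4 : xx a₀ = (1 : S2 F) := congrArg Subtype.val h3
      have h5 := congrArg be h4
      simp at h5
      exact ha₀ h5
    · rw [ha]
      exact hp3.trans (Nat.le_of_dvd Nat.card_pos h1)
  obtain ⟨j, hj⟩ := index_BK K
  rw [← hn, ← ha] at hj
  have hn2 : 2 ≤ n := by
    have h0 : n ≠ 0 := by rw [hn]; exact Subgroup.index_ne_zero_of_finite
    have h1 : n ≠ 1 := by
      rw [hn]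
      intro h1
      rw [Subgroup.index_eq_one] at h1
      obtain ⟨y, hy⟩ := hy
      apply hy
      have : y ∈ BK K := by rw [h1]; exact Subgroup.mem_top y
      exact this
    omega
  have hj1 : 1 ≤ j := by
    rcases Nat.eq_zero_or_pos j with h0 | h0
    · rw [h0] at hj; omega
    · exact h0
  have hkn : cB * n = k := by rw [hcB, hn, hk]; exact Subgroup.card_mul_index _
  have hle : Cn (⟨xx a₀, hx⟩ : K) ≤ BK K := fun g hg => ((mem_Cn_x K ha₀ hx).mp hg).1
  have hC : Nat.card (Cn (⟨xx a₀, hx⟩ : K)) = z * a := by rw [hz, ha]; exact card_Cn_x K hp2 ha₀ hx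
  have hB : cB = z * a * h := by
    rw [hcB, hh, ← hC]; exact Cfsg.Agent.Lib.Helper4.card_eq_mul_relIndex hle
  have hha : h ≤ a - 1 := by rw [hh, ha]; exact relIndex_le K ha₀ hx
  have hh1 : 1 ≤ h := by
    rcases Nat.eq_zero_or_pos h with h0 | h0
    · rw [h0] at hB; omega
    · exact h0
  have hxZ : (⟨xx a₀, hx⟩ : K) ∉ ZK K := by
    intro h
    rcases (mem_ZK K).mp h with h | h
    · have := congrArg be h
      simp at this; exact ha₀ this
    · have := congrArg be h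
      simp at this; exact ha₀ this
  have hk' : k = n * z * a * h := by rw [← hkn, hB]; ring
  have ht : t₁ + z * n = z * a * n := by
    have h1 := cls_count (ZK K) (hZc K) (hCA K) hxZ
    rw [normalizer_Cn_x K ha₀ hx, hC, ← hz, ← hk, ← ht₁, ← hcB, ← hkn] at h1
    have h2 : t₁ = (z * a - z) * n := by
      apply Nat.eq_of_mul_eq_mul_right hcBpos
      rw [h1]; ring
    rw [h2]
    have h3 : z ≤ z * a := Nat.le_mul_of_pos_right _ (by omega)
    calc (z * a - z) * n + z * n = (z * a - z + z) * n := by ring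
      _ = z * a * n := by rw [Nat.sub_add_cancel h3]
  have hdec : k = z + t₁ + s := by rw [hk, hz, ht₁, hs]; exact card_decomp K hp2 ha₀ hx
  have hsat := sat_SS K hp2 ha₀ hx
  -- general facts on classes inside a saturated subset of `SS`
  have hpar : ∀ g ∈ SS K, ∃ c ε : ℕ, 2 ≤ c ∧ (ε = 1 ∨ ε = 2) ∧ Nat.card (Cn g) = z * c ∧
      (cls (ZK K) g).ncard * (ε * c) = (c - 1) * k := by
    intro g hg
    rw [hz, hk]
    exact ss_params K hp2 hg
  have hzn : z * (n - 1) + z = z * n := by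
    have : n - 1 + 1 = n := by omega
    calc z * (n - 1) + z = z * (n - 1 + 1) := by ring
      _ = z * n := by rw [this]
  have hone : h = 1 := by rw [hh]; exact Subgroup.relIndex_eq_one.mpr hBC
  rw [hone, mul_one] at hk'
  have hs' : s = z * (n - 1) := by
    have : z * a * n = n * z * a := by ring
    omega
  have hspos : 0 < s := by
    rw [hs']; exact Nat.mul_pos (by omega) (by omega)
  obtain ⟨g₂, hg₂⟩ : (SS K).Nonempty := by
    rw [← Set.ncard_pos, ← hs]; exact hspos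
  obtain ⟨c₂, ε₂, hc₂, hε₂, -, hw₂⟩ := hpar g₂ hg₂
  have hd₂ := hsat.ncard_diff _ hg₂
  rw [← hs] at hd₂
  have hA₂ := arithA hn2 ha3 hzpos hc₂ hε₂ (by rw [hw₂, hk']) (by rw [← hs']; omega)
  by_cases hne : (SS K \ cls (ZK K) g₂).Nonempty
  · exfalso
    obtain ⟨g₃, hg₃⟩ := hne
    obtain ⟨c₃, ε₃, hc₃, hε₃, -, hw₃⟩ := hpar g₃ hg₃.1
    have hsat₂ := hsat.diff _ (hZc K) (hCA K) hg₂
    have hle₃ : (cls (ZK K) g₃).ncard ≤ (SS K \ cls (ZK K) g₂).ncard :=
      Set.ncard_le_ncard (hsat₂ g₃ hg₃).2 (Set.toFinite _)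
    have hA₃ := arithA hn2 ha3 hzpos hc₃ hε₃ (by rw [hw₃, hk']) (by rw [← hs']; omega)
    have h5 : 3 * n * z = 3 * (z * n) := by ring
    omega
  · rw [Set.not_nonempty_iff_eq_empty] at hne
    rw [hne, Set.ncard_empty] at hd₂
    have h5 : 3 * n * z = 3 * (z * n) := by ring
    have h6 : z * n = 4 * z := by omega
    have h7 : n = 4 := by
      apply Nat.eq_of_mul_eq_mul_left hzpos
      rw [h6]; ring
    subst h7
    have h8 : a * j = 3 := by omega
    have h9 : a = 3 := by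
      have : a ∣ 3 := ⟨j, h8.symm⟩
      have := Nat.le_of_dvd (by norm_num) this
      omega
    refine ⟨h9, ?_⟩
    rw [hk', h9]; ring

end main

section core

variable {F : Type*} [Field F] {p : ℕ} [hpF : Fact p.Prime] [CharP F p]

theorem eq_one_of_pow_p {G : Type*} [Group G] {p : ℕ} {R : Subgroup G} (hR : (Nat.card R).Coprime p)
    {c : G} (hc : c ∈ R) (h : c ^ p = 1) : c = 1 := by
  have h1 : orderOf (⟨c, hc⟩ : R) ∣ p := orderOf_dvd_of_pow_eq_one (Subtype.ext (by simpa using h))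
  have h2 : orderOf (⟨c, hc⟩ : R) ∣ Nat.card R := orderOf_dvd_natCard _
  have h3 : orderOf (⟨c, hc⟩ : R) ∣ Nat.gcd (Nat.card R) p := Nat.dvd_gcd h2 h1
  rw [Nat.Coprime.gcd_eq_one hR, Nat.dvd_one, orderOf_eq_one_iff] at h3
  exact congrArg Subtype.val h3

theorem central_of_tr (hp2 : p ≠ 2) {R : Subgroup (S2 F)} (hR : (Nat.card R).Coprime p) {r : S2 F}
    (hr : r ∈ R) (ht : tr r ^ 2 = 4) : r = 1 ∨ r = mone := by
  have h2 := two_ne_zero' (F := F) hp2
  have : tr r = 2 ∨ tr r = -2 := by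
    have : (tr r - 2) * (tr r + 2) = 0 := by linear_combination ht
    rcases mul_eq_zero.mp this with h | h
    · left; linear_combination h
    · right; linear_combination h
  rcases this with h | h
  · left; exact eq_one_of_pow_p hR hr (pow_char_of_tr_two h)
  · have h1 := pow_char_of_tr_neg_two hp2 h
    have h3 : (r * r) ^ p = 1 := by rw [(Commute.refl r).mul_pow, h1, mone_mul_mone]
    have h4 := eq_one_of_pow_p hR (R.mul_mem hr hr) h3
    exact eq_one_or_mone_of_sq h2 h4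

theorem core [Finite F] (hp2 : p ≠ 2) {a₀ : F} (ha₀ : a₀ ≠ 0) (R : Subgroup (S2 F))
    (hR : (Nat.card R).Coprime p) (hN : xx a₀ ∈ Subgroup.normalizer (R : Set (S2 F))) {r₀ : S2 F}
    (hr₀ : r₀ ∈ R) (hnc : r₀ * xx a₀ ≠ xx a₀ * r₀) :
    p = 3 ∧ Nat.card R = 8 ∧ Nat.card (R ⊔ Subgroup.zpowers (xx a₀) : Subgroup (S2 F)) = 24 := by
  have hfin : Finite (S2 F) := by
    unfold S2 Matrix.SpecialLinearGroup
    infer_instance
  have h2 := two_ne_zero' (F := F) hp2
  obtain ⟨K, hK⟩ : ∃ K, K = R ⊔ Subgroup.zpowers (xx a₀) := ⟨_, rfl⟩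
  rw [← hK]
  have hx : xx a₀ ∈ K := by rw [hK]; exact (le_sup_right : _ ≤ R ⊔ _) (Subgroup.mem_zpowers _)
  have hRK : R ≤ K := by rw [hK]; exact le_sup_left
  have hzN : Subgroup.zpowers (xx a₀) ≤ Subgroup.normalizer (R : Set (S2 F)) :=
    Subgroup.zpowers_le.mpr hN
  have key : ∀ r ∈ R, ga r = 0 → r = 1 ∨ r = mone := by
    intro r hr h0
    have hd := det_eq r
    rw [h0] at hd
    have hc : r * (xx a₀ * r⁻¹ * (xx a₀)⁻¹) = xx ((al r ^ 2 - 1) * a₀) := by
      apply ext' <;> simp only [al_mul, be_mul, ga_mul, de_mul, al_inv, be_inv, ga_inv, de_inv,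
        al_xx, be_xx, ga_xx, de_xx, h0]
      · linear_combination hd
      · linear_combination (-a₀) * hd
      · ring
      · linear_combination hd
    have hcR : r * (xx a₀ * r⁻¹ * (xx a₀)⁻¹) ∈ R :=
      R.mul_mem hr (Cfsg.Agent.Lib.Helper1.conj_mem_of_mem_normalizer hN (R.inv_mem hr))
    rw [hc] at hcR
    have h1 := eq_one_of_pow_p hR hcR (pow_char_of_tr_two (by simp [tr]; norm_num))
    have h2' : (al r ^ 2 - 1) * a₀ = 0 := by simpa using congrArg be h1
    have h3 : al r ^ 2 = 1 := by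
      have := (mul_eq_zero.mp h2').resolve_right ha₀
      linear_combination this
    apply central_of_tr hp2 hR hr
    have h4 : de r = al r := by linear_combination (al r) * hd - (de r) * h3
    simp only [tr]; rw [h4]; linear_combination 4 * h3
  have hKmem : ∀ g ∈ K, ∃ r ∈ R, ∃ s : F, g = r * xx s := by
    intro g hg
    rw [hK] at hg
    obtain ⟨r, hr, b, hb, rfl⟩ := (Cfsg.Agent.Lib.Helper1.mem_sup_of_le_normalizer hzN).mp hg
    obtain ⟨i, rfl⟩ := (mem_powers_iff_mem_zpowers.mpr hb)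
    exact ⟨r, hr, (i : F) * a₀, by simp only [xx_pow]⟩
  have hy : ∃ y : K, ga (y : S2 F) ≠ 0 := ⟨⟨r₀, hRK hr₀⟩, fun h0 => hnc (by
    rcases key r₀ hr₀ h0 with h | h
    · rw [h]; simp
    · rw [h]; exact mone_comm _)⟩
  have hBC : BK K ≤ Cn (⟨xx a₀, hx⟩ : K) := by
    intro g hg
    rw [mem_BK] at hg
    obtain ⟨r, hr, s, hs⟩ := hKmem g g.2
    rw [hs] at hg
    have h0 : ga r = 0 := by simpa using hg
    rw [mem_Cn]
    apply Subtype.ext
    show (g : S2 F) * xx a₀ = xx a₀ * g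
    rw [hs]
    rcases key r hr h0 with h | h
    · rw [h, one_mul, ← xx_add, ← xx_add, add_comm]
    · rw [h, mul_assoc, ← xx_add, ← mul_assoc, ← mone_comm, mul_assoc, ← xx_add, add_comm]
  obtain ⟨hU, hcard⟩ := count_h1 K hp2 ha₀ hx hy hBC
  have hp3 : p = 3 := by
    rcases (isPGroup_UK (p := p) K).card_eq_or_dvd with h | h
    · omega
    · rw [hU] at h
      exact (Nat.prime_dvd_prime_iff_eq hpF.out Nat.prime_three).mp h
  have hox : Nat.card (Subgroup.zpowers (xx a₀)) = p := by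
    rw [Nat.card_zpowers]
    exact orderOf_eq_prime (pow_char_of_tr_two (by simp [tr]; norm_num)) (by
      intro h
      have := congrArg be h
      simp at this
      exact ha₀ this)
  have hinf : Subgroup.zpowers (xx a₀) ⊓ R = ⊥ :=
    (Subgroup.disjoint_of_coprime_natCard (by rw [hox]; exact hR.symm)).eq_bot
  have hprod := Cfsg.Agent.Lib.Helper4.card_mul_card_eq_of_le_normalizer
    (Subgroup.zpowers (xx a₀)) R hzN
  rw [hinf, Subgroup.card_bot, mul_one, hox, sup_comm, ← hK, hp3] at hprod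
  have hz : Nat.card (ZK K) = 2 := by
    rcases card_ZK K with h | h
    · exfalso
      have hR4 : Nat.card R = 4 := by omega
      obtain ⟨u, hu⟩ := exists_prime_orderOf_dvd_card' (G := R) 2 (by rw [hR4]; norm_num)
      have hu2 : (u : S2 F) * u = 1 := by
        have := pow_orderOf_eq_one u
        rw [hu, pow_two] at this
        exact congrArg Subtype.val this
      rcases eq_one_or_mone_of_sq h2 hu2 with h1 | h1
      · have : u = 1 := Subtype.ext h1
        rw [this, orderOf_one] at hu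
        norm_num at hu
      · have hb : (ZK K) = ⊥ := Subgroup.card_eq_one.mp h
        have hm : (⟨mone, hRK (h1 ▸ u.2)⟩ : K) ∈ ZK K := (mem_ZK K).mpr (Or.inr rfl)
        rw [hb, Subgroup.mem_bot] at hm
        have h5 := congrArg (fun g : K => al (g : S2 F)) hm
        simp at h5
        apply h2
        linear_combination -h5
    · exact h
  refine ⟨hp3, ?_, ?_⟩ <;> omega

end core

end Cfsg.Agent.Lib.Helper5.Dk
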