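import Cfsg.Agent.Lib.Helper1.Nilp
import Cfsg.Agent.Lib.Helper1.Class2
import Cfsg.Agent.Lib.Helper22.Frat

set_option autoImplicit false

/-! Coprime action: `C_P(A) ≤ P'` when `[P,A] = P`. -/

namespace Cfsg.Agent.Lib.Helper5.HH

open Cfsg.Agent.Lib.Helper1
open scoped commutatorElement

variable {X : Type*} [Group X] [Finite X]

theorem cent_le_commutator {p : ℕ} [Fact p.Prime] (A P : Subgroup X) (hP : IsPGroup p P)
    (hAP : A ≤ Subgroup.normalizer (P : Set X)) (hAp : (Nat.card A).Coprime p) (hPA : ⁅P, A⁆ = P)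
    (c : P) (hc : (c : X) ∈ Subgroup.centralizer (A : Set X)) : c ∈ commutator P := by
  classical
  haveI := Fintype.ofFinite A
  let σ : A → (P ≃* P) := fun a => conjNormalizer a.1 (hAP a.2)
  let ν : P →* Abelianization P := ∏ a : A, (Abelianization.of).comp (σ a).toMonoidHom
  have hν : ∀ x, ν x = ∏ a : A, Abelianization.of (σ a x) := by
    intro x; simp [ν, MonoidHom.finset_prod_apply]
  have hσ : ∀ a b : A, ∀ x, σ a (σ b x) = σ (a * b) x := by
    intro a b x; apply Subtype.ext; simp [σ, conjNormalizer, mul_assoc]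
  have h1 : ∀ (b : A) x, ν (σ b x) = ν x := by
    intro b x
    rw [hν, hν]
    exact Fintype.prod_equiv (Equiv.mulRight b) _ _ (fun a => by rw [hσ]; rfl)
  have h2 : ⁅P, A⁆ ≤ ν.ker.map P.subtype := by
    rw [Subgroup.commutator_le]
    intro x hx a ha
    refine ⟨⟨x, hx⟩ * σ ⟨a, ha⟩ ⟨x, hx⟩⁻¹, ?_, ?_⟩
    · rw [SetLike.mem_coe, MonoidHom.mem_ker, map_mul, h1, map_inv, mul_inv_cancel]
    · simp [σ, conjNormalizer, commutatorElement_def, mul_assoc]
  have h3 : ∀ x : P, ν x = 1 := by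
    intro x
    have hx : (x : X) ∈ ⁅P, A⁆ := by rw [hPA]; exact x.2
    obtain ⟨y, hy, hyx⟩ := h2 hx
    have : y = x := Subtype.ext hyx
    rw [← this]; exact hy
  have h4 : ν c = (Abelianization.of c) ^ (Nat.card A) := by
    rw [hν]
    have : ∀ a : A, σ a c = c := by
      intro a; apply Subtype.ext
      show a.1 * c.1 * a.1⁻¹ = c.1
      rw [Subgroup.mem_centralizer_iff.mp hc a.1 a.2, mul_inv_cancel_right]
    simp [this, Nat.card_eq_fintype_card]
  rw [h3] at h4
  obtain ⟨k, hk⟩ := hP c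
  have h5 : (Abelianization.of c) ^ (p ^ k) = 1 := by rw [← map_pow, hk, map_one]
  have h6 : orderOf (Abelianization.of c) = 1 :=
    Nat.eq_one_of_dvd_coprimes (Nat.Coprime.pow_right k hAp) (orderOf_dvd_of_pow_eq_one h4.symm)
      (orderOf_dvd_of_pow_eq_one h5)
  rw [orderOf_eq_one_iff] at h6
  rw [← Abelianization.ker_of]
  exact h6

end Cfsg.Agent.Lib.Helper5.HH
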