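import Cfsg.Agent.Lib.Helper5.HH1

set_option autoImplicit false

/-! The abelian case of Thompson's strengthened `P × Q` lemma, and the Baer trick. -/

namespace Cfsg.Agent.Lib.Helper5.HH

open Cfsg.Agent.Lib.Helper1
open scoped commutatorElement

theorem ab_case {T V : Type*} [Group T] [CommGroup V] [Finite V] [MulDistribMulAction T V]
    {p : ℕ} [Fact p.Prime] (hV : IsPGroup p V) (P Q : Subgroup T) [Finite Q]
    (hP : IsPGroup p P) (hQ : (Nat.card Q).Coprime p)
    (hPQ : P ≤ Subgroup.normalizer (Q : Set T))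
    (hC : ∀ v : V, (∀ a ∈ P, a • v = v) → ∀ q ∈ Q, q • v = v) : ∀ q ∈ Q, ∀ v : V, q • v = v := by
  classical
  have := Fintype.ofFinite Q
  have hcopr : ∀ u : V, u ^ (Nat.card Q) = 1 → u = 1 := by
    intro u hu
    obtain ⟨k, hk⟩ := hV u
    have h6 : orderOf u = 1 :=
      Nat.eq_one_of_dvd_coprimes (Nat.Coprime.pow_right k hQ) (orderOf_dvd_of_pow_eq_one hu)
        (orderOf_dvd_of_pow_eq_one hk)
    exact orderOf_eq_one_iff.mp h6
  let π : V →* V :=
    { toFun := fun v => ∏ q : Q, (q : T) • v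
      map_one' := by simp
      map_mul' := by intro x y; simp [smul_mul', Finset.prod_mul_distrib] }
  have hπ : ∀ v, π v = ∏ q : Q, (q : T) • v := fun v => rfl
  have hπfix : ∀ (r : T), r ∈ Q → ∀ v, r • π v = π v := by
    intro r hr v
    rw [hπ, Finset.smul_prod']
    exact Fintype.prod_equiv (Equiv.mulLeft (⟨r, hr⟩ : Q)) _ _ (fun q => by simp [mul_smul])
  have hπP : ∀ a ∈ P, ∀ v, a • π v = π (a • v) := by
    intro a ha v
    rw [hπ, hπ, Finset.smul_prod']
    exact Fintype.prod_equiv (conjNormalizer a (hPQ ha)).toEquiv _ _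
      (fun q => by simp [conjNormalizer, smul_smul])
  have hπQ : ∀ v, (∀ q ∈ Q, q • v = v) → π v = v ^ (Nat.card Q) := by
    intro v hv
    rw [hπ, Finset.prod_congr rfl (fun q _ => hv q.1 q.2)]
    simp [Nat.card_eq_fintype_card]
  let W : Subgroup V := π.ker
  letI : MulAction P W :=
    { smul := fun a w => ⟨(a : T) • (w : V), by
        show _ ∈ π.ker
        rw [MonoidHom.mem_ker, ← hπP a a.2, MonoidHom.mem_ker.mp w.2, smul_one]⟩
      one_smul := fun w => Subtype.ext (one_smul T (w : V))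
      mul_smul := fun a b w => Subtype.ext (mul_smul (a : T) (b : T) (w : V)) }
  have hsm : ∀ (a : P) (w : W), ((a • w : W) : V) = (a : T) • (w : V) := fun a w => rfl
  have hW : W = ⊥ := by
    by_contra hne
    haveI : Nontrivial W := (Subgroup.nontrivial_iff_ne_bot W).mpr hne
    have hWp : IsPGroup p W := hV.to_subgroup W
    obtain ⟨n, hn0, hn⟩ := hWp.nontrivial_iff_card.mp inferInstance
    have hdvd : p ∣ Nat.card W := hn.symm ▸ dvd_pow_self _ (ne_of_gt hn0)
    obtain ⟨b, hb, hb1⟩ := hP.exists_fixed_point_of_prime_dvd_card_of_fixed_point W hdvd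
      (a := (1 : W)) (by
        intro a
        apply Subtype.ext
        rw [hsm]; simp)
    have hbP : ∀ a ∈ P, a • (b : V) = b := by
      intro a ha
      have := congrArg Subtype.val (hb ⟨a, ha⟩)
      rwa [hsm] at this
    have h1 := hπQ b (hC b hbP)
    rw [MonoidHom.mem_ker.mp b.2] at h1
    exact hb1 (Subtype.ext (hcopr _ h1.symm).symm)
  intro q hq v
  have hy : v ^ (Nat.card Q) * (π v)⁻¹ ∈ W := by
    show _ ∈ π.ker
    rw [MonoidHom.mem_ker, map_mul, map_inv, map_pow, hπQ (π v) (fun r hr => hπfix r hr v),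
      mul_inv_cancel]
  rw [hW, Subgroup.mem_bot, mul_inv_eq_one] at hy
  have h2 : q • (v ^ (Nat.card Q)) = v ^ (Nat.card Q) := by rw [hy]; exact hπfix q hq v
  rw [smul_pow'] at h2
  have h3 : ((q • v) * v⁻¹) ^ (Nat.card Q) = 1 := by
    rw [mul_pow, h2, inv_pow, mul_inv_cancel]
  exact mul_inv_eq_one.mp (hcopr _ h3)

structure BaerData (G : Type*) [Group G] where
  h : ℕ
  cl : Class2 G
  hh : ∀ c : G, c ^ (2 * h) = c

structure Baer {G : Type*} [Group G] (_D : BaerData G) where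
  val : G

namespace Baer

variable {G : Type*} [Group G] (D : BaerData G)

def bm (x y : G) : G := x * y * ⁅y, x⁆ ^ D.h

theorem bm_comm (x y : G) : bm D x y = bm D y x := by
  have hc := D.cl
  have ha : ∀ g, g * ⁅y, x⁆ = ⁅y, x⁆ * g := fun g => hc.comm y x g
  have h1 : ⁅y, x⁆ ^ D.h * ⁅y, x⁆ ^ D.h = ⁅y, x⁆ := by
    rw [← pow_add, ← two_mul]; exact D.hh _
  unfold bm
  rw [Class2.swap x y, ← commutatorElement_inv y x, inv_pow, ← ha (x * y), mul_assoc (x * y)]
  congr 1
  rw [eq_mul_inv_iff_mul_eq]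
  exact h1

theorem bm_assoc (x y z : G) : bm D (bm D x y) z = bm D x (bm D y z) := by
  have hc := D.cl
  have ha : ∀ g, g * ⁅y, x⁆ ^ D.h = ⁅y, x⁆ ^ D.h * g := fun g => hc.comm_pow y x g _
  have hb : ∀ g, g * ⁅z, x⁆ ^ D.h = ⁅z, x⁆ ^ D.h * g := fun g => hc.comm_pow z x g _
  have hcc : ∀ g, g * ⁅z, y⁆ ^ D.h = ⁅z, y⁆ ^ D.h * g := fun g => hc.comm_pow z y g _
  have e1 : ⁅z, x * y * ⁅y, x⁆ ^ D.h⁆ = ⁅z, x⁆ * ⁅z, y⁆ := by
    rw [hc.mul_right, hc.mul_right]
    have : ⁅z, ⁅y, x⁆ ^ D.h⁆ = 1 := by rw [commutatorElement_eq_one_iff_mul_comm]; exact ha z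
    rw [this, mul_one]
  have e2 : ⁅y * z * ⁅z, y⁆ ^ D.h, x⁆ = ⁅y, x⁆ * ⁅z, x⁆ := by
    rw [hc.mul_left, hc.mul_left]
    have : ⁅⁅z, y⁆ ^ D.h, x⁆ = 1 := by rw [commutatorElement_eq_one_iff_mul_comm]; exact (hcc x).symm
    rw [this, mul_one]
  have e3 : (⁅z, x⁆ * ⁅z, y⁆) ^ D.h = ⁅z, x⁆ ^ D.h * ⁅z, y⁆ ^ D.h :=
    (show Commute ⁅z, x⁆ ⁅z, y⁆ from hc.comm z y _).mul_pow _
  have e4 : (⁅y, x⁆ * ⁅z, x⁆) ^ D.h = ⁅y, x⁆ ^ D.h * ⁅z, x⁆ ^ D.h :=
    (show Commute ⁅y, x⁆ ⁅z, x⁆ from hc.comm z x _).mul_pow _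
  unfold bm
  rw [e1, e2, e3, e4]
  generalize ⁅y, x⁆ ^ D.h = a at *
  generalize ⁅z, x⁆ ^ D.h = b at *
  generalize ⁅z, y⁆ ^ D.h = c at *
  calc x * y * a * z * (b * c) = x * y * (a * z) * (b * c) := by simp only [mul_assoc]
    _ = x * y * (z * a) * (b * c) := by rw [ha z]
    _ = x * y * z * ((a * b) * c) := by simp only [mul_assoc]
    _ = x * y * z * (c * (a * b)) := by rw [hcc (a * b)]
    _ = x * (y * z * c) * (a * b) := by simp only [mul_assoc]

theorem ext' {x y : Baer D} (h : x.val = y.val) : x = y := by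
  cases x; cases y; simp_all

instance : Mul (Baer D) := ⟨fun x y => ⟨bm D x.val y.val⟩⟩
instance : One (Baer D) := ⟨⟨1⟩⟩
instance : Inv (Baer D) := ⟨fun x => ⟨x.val⁻¹⟩⟩

@[simp] theorem mul_val (x y : Baer D) : (x * y).val = bm D x.val y.val := rfl
@[simp] theorem one_val : (1 : Baer D).val = 1 := rfl
@[simp] theorem inv_val (x : Baer D) : (x⁻¹).val = x.val⁻¹ := rfl

instance : Group (Baer D) :=
  Group.ofLeftAxioms (fun x y z => ext' D (bm_assoc D _ _ _))
    (fun x => ext' D (by simp [bm]))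
    (fun x => ext' D (by simp [bm, commutatorElement_def]))

instance : CommGroup (Baer D) :=
  { (inferInstance : Group (Baer D)) with mul_comm := fun x y => ext' D (bm_comm D _ _) }

def equiv : Baer D ≃ G := ⟨Baer.val, Baer.mk, fun _ => rfl, fun _ => rfl⟩

instance [Finite G] : Finite (Baer D) := Finite.of_equiv G (equiv D).symm

theorem card_eq : Nat.card (Baer D) = Nat.card G := Nat.card_congr (equiv D)

/-- a group acting on `G` by automorphisms acts on the Baer group -/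
@[instance_reducible]
def action {T : Type*} [Group T] (φ : T →* MulAut G) : MulDistribMulAction T (Baer D) where
  smul := fun t x => ⟨φ t x.val⟩
  one_smul := fun x => ext' D (by
    show φ 1 x.val = x.val
    rw [map_one]; rfl)
  mul_smul := fun s t x => ext' D (by
    show φ (s * t) x.val = φ s (φ t x.val)
    rw [map_mul]; rfl)
  smul_mul := fun t x y => ext' D (by
    show φ t (bm D x.val y.val) = bm D (φ t x.val) (φ t y.val)
    simp [bm, map_commutatorElement])
  smul_one := fun t => ext' D (by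
    show φ t (1 : G) = (1 : G)
    simp)

theorem smul_val {T : Type*} [Group T] (φ : T →* MulAut G) (t : T) (x : Baer D) :
    letI := action D φ
    (t • x).val = φ t x.val := rfl

end Baer

end Cfsg.Agent.Lib.Helper5.HH
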