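import Mathlib
import Cfsg.Prelude.Def_Perm

set_option autoImplicit false
open MulAction Pointwise

namespace Cfsg.Agent.H5Heart3

variable {G : Type*} [Group G] {K : Type*} [Field K] {Ω : Type*} [Fintype Ω] [DecidableEq Ω]
  [MulAction G Ω]

lemma kernel_const
    (h : ∀ f : Representation.IntertwiningMap (Cfsg.permSumZero K G Ω).toRepresentation
      (Cfsg.permRep K G (Set.powersetCard Ω 2)),
      (∀ v : (Cfsg.permSumZero K G Ω).toSubmodule,
        (v : Ω → K) ∈ (Cfsg.permConstants K G Ω).toSubmodule → f v = 0) → f = 0)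
    (w : Ω → Set.powersetCard Ω 2 → K) (hinv : ∀ (g : G) a P, w (g • a) (g • P) = w a P)
    (hsum : ∀ P, ∑ a, w a P = 0) : ∀ a b P, w a P = w b P := by
  let L : (Cfsg.permSumZero K G Ω).toSubmodule →ₗ[K] (Set.powersetCard Ω 2 → K) :=
    { toFun := fun v P => ∑ a, w a P * (v : Ω → K) a
      map_add' := by
        intro v₁ v₂
        funext P
        simp only [Submodule.coe_add, Pi.add_apply, mul_add, Finset.sum_add_distrib]
      map_smul' := by
        intro c v
        funext P
        simp only [Submodule.coe_smul, Pi.smul_apply, smul_eq_mul, RingHom.id_apply, Finset.mul_sum]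
        refine Finset.sum_congr rfl fun a _ => by ring }
  have hL : ∀ (g : G) (v : (Cfsg.permSumZero K G Ω).toSubmodule),
      L ((Cfsg.permSumZero K G Ω).toRepresentation g v) =
        (Cfsg.permRep K G (Set.powersetCard Ω 2)) g (L v) := by
    intro g v
    funext P
    show ∑ a, w a P * (v : Ω → K) (g⁻¹ • a) = ∑ a, w a (g⁻¹ • P) * (v : Ω → K) a
    refine Fintype.sum_equiv (MulAction.toPerm g⁻¹) _ _ (fun a => ?_)
    show w a P * (v : Ω → K) (g⁻¹ • a) = w (g⁻¹ • a) (g⁻¹ • P) * (v : Ω → K) (g⁻¹ • a)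
    rw [hinv]
  have h0 := h (L.intertwiningMap_of_isIntertwiningMap _ _ hL) (by
    intro v hv
    show L v = 0
    have hv' : (v : Ω → K) ∈ Submodule.span K {fun _ => (1 : K)} := hv
    rw [Submodule.mem_span_singleton] at hv'
    obtain ⟨c, hc⟩ := hv'
    funext P
    show ∑ a, w a P * (v : Ω → K) a = 0
    rw [← hc]
    simp only [Pi.smul_apply, smul_eq_mul, mul_one]
    rw [← Finset.sum_mul, hsum, zero_mul])
  intro a b P
  have hmem : (Pi.single a 1 - Pi.single b 1 : Ω → K) ∈ (Cfsg.permSumZero K G Ω).toSubmodule := by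
    show ∑ x, (Pi.single a 1 - Pi.single b 1 : Ω → K) x = 0
    simp only [Pi.sub_apply, Finset.sum_sub_distrib, Finset.sum_pi_single', Finset.mem_univ, if_true,
      sub_self]
  have h1 : L ⟨_, hmem⟩ = 0 := by
    have := congrArg (fun f => f ⟨_, hmem⟩) h0
    exact this
  have h2 := congrFun h1 P
  have h3 : ∑ x, w x P * (Pi.single a 1 - Pi.single b 1 : Ω → K) x = 0 := h2
  simp only [Pi.sub_apply, mul_sub, Finset.sum_sub_distrib, Pi.single_apply, mul_ite, mul_one, mul_zero,
    Finset.sum_ite_eq', Finset.mem_univ, if_true] at h3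
  exact sub_eq_zero.1 h3

lemma trans_point_pair (htr : IsPretransitive G (Set.powersetCard Ω 2))
    (hk : ∀ w : Ω → Set.powersetCard Ω 2 → K, (∀ (g : G) a P, w (g • a) (g • P) = w a P) →
      (∀ P, ∑ a, w a P = 0) → ∀ a b P, w a P = w b P)
    (a0 : Ω) (P0 : Set.powersetCard Ω 2) (h0 : a0 ∉ P0.val)
    (a1 : Ω) (P1 : Set.powersetCard Ω 2) (h1 : a1 ∉ P1.val) :
    ∃ g : G, g • a0 = a1 ∧ g • P0 = P1 := by
  classical
  by_contra hcon
  let R : Ω → Set.powersetCard Ω 2 → Prop := fun a P => ∃ g : G, g • a0 = a ∧ g • P0 = P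
  have hRinv : ∀ (g : G) a P, R (g • a) (g • P) ↔ R a P := by
    intro g a P
    constructor
    · rintro ⟨g', e1, e2⟩
      exact ⟨g⁻¹ * g', by rw [mul_smul, e1, inv_smul_smul], by rw [mul_smul, e2, inv_smul_smul]⟩
    · rintro ⟨g', e1, e2⟩
      exact ⟨g * g', by rw [mul_smul, e1], by rw [mul_smul, e2]⟩
  have hmem : ∀ (g : G) a (P : Set.powersetCard Ω 2), g • a ∈ (g • P).val ↔ a ∈ P.val := by
    intro g a P
    rw [Set.powersetCard.coe_smul]
    exact Finset.smul_mem_smul_finset_iff g
  have hRnot : ∀ a P, R a P → a ∉ P.val := by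
    rintro a P ⟨g, rfl, rfl⟩
    rw [hmem]; exact h0
  let r : Ω → Set.powersetCard Ω 2 → K := fun a P => if R a P then 1 else 0
  let m : Ω → Set.powersetCard Ω 2 → K := fun a P => if a ∈ P.val then 1 else 0
  let c : Set.powersetCard Ω 2 → K := fun P => ∑ a, r a P
  have hrinv : ∀ (g : G) a P, r (g • a) (g • P) = r a P := by
    intro g a P
    show (if R (g • a) (g • P) then (1 : K) else 0) = if R a P then 1 else 0
    simp only [hRinv]
  have hminv : ∀ (g : G) a P, m (g • a) (g • P) = m a P := by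
    intro g a P
    show (if g • a ∈ (g • P).val then (1 : K) else 0) = if a ∈ P.val then 1 else 0
    simp only [hmem]
  have hcinv : ∀ (g : G) P, c (g • P) = c P := by
    intro g P
    show ∑ a, r a (g • P) = ∑ a, r a P
    symm
    refine Fintype.sum_equiv (MulAction.toPerm g) _ _ (fun a => ?_)
    exact (hrinv g a P).symm
  have hmsum : ∀ P, ∑ a, m a P = 2 := by
    intro P
    show ∑ a, (if a ∈ P.val then (1 : K) else 0) = 2
    rw [Finset.sum_boole]
    have : (Finset.univ.filter (fun a => a ∈ P.val)) = P.val := by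
      ext a; simp
    rw [this, P.prop]
    norm_num
  have hw := hk (fun a P => c P * m a P - 2 * r a P)
    (by intro g a P; simp only [hcinv, hminv, hrinv])
    (by
      intro P
      rw [Finset.sum_sub_distrib, ← Finset.mul_sum, ← Finset.mul_sum, hmsum]
      show c P * 2 - 2 * c P = 0
      ring)
  have hne : P1.val.Nonempty := by
    rw [← Finset.card_pos, P1.prop]; norm_num
  obtain ⟨b, hb⟩ := hne
  have hc1 : c P1 = 0 := by
    have e := hw b a1 P1
    have e1 : m b P1 = 1 := if_pos hb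
    have e2 : r b P1 = 0 := if_neg (fun hR => hRnot b P1 hR hb)
    have e3 : m a1 P1 = 0 := if_neg h1
    have e4 : r a1 P1 = 0 := if_neg hcon
    simp only [e1, e2, e3, e4, mul_one, mul_zero, sub_zero] at e
    exact e
  have hc : ∀ P, c P = 0 := by
    intro P
    obtain ⟨g, hg⟩ := htr.exists_smul_eq P1 P
    rw [← hg, hcinv, hc1]
  have hr := hk r hrinv hc
  have hne0 : P0.val.Nonempty := by
    rw [← Finset.card_pos, P0.prop]; norm_num
  obtain ⟨b0, hb0⟩ := hne0
  have e := hr a0 b0 P0
  have e1 : r a0 P0 = 1 := if_pos ⟨1, one_smul _ _, one_smul _ _⟩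
  have e2 : r b0 P0 = 0 := if_neg (fun hR => hRnot b0 P0 hR hb0)
  rw [e1, e2] at e
  exact one_ne_zero e

end Cfsg.Agent.H5Heart3
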