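import Mathlib

set_option autoImplicit false

namespace Cfsg.Agent.Lib.Helper5

/-- A group acting semiregularly on an invariant finite subset has order dividing its size. -/
theorem card_dvd_of_semiregular {G X : Type*} [Group G] [MulAction G X]
    (S : Set X) (hS : ∀ g : G, ∀ x ∈ S, g • x ∈ S)
    (hfree : ∀ g : G, ∀ x ∈ S, g • x = x → g = 1) : Nat.card G ∣ S.ncard := by
  let T : SubMulAction G X := ⟨S, fun g x hx => hS g x hx⟩
  have h : ∀ b : T, MulAction.stabilizer G b = ⊥ := by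
    intro b
    rw [eq_bot_iff]
    intro g hg
    rw [MulAction.mem_stabilizer_iff] at hg
    exact Subgroup.mem_bot.mpr (hfree g b.1 b.2 (congrArg Subtype.val hg))
  have e := MulAction.selfEquivOrbitsQuotientProd h
  have h1 : Nat.card T = S.ncard := Nat.card_coe_set_eq S
  rw [← h1, Nat.card_congr e, Nat.card_prod]
  exact Dvd.intro_left _ rfl

section

variable {p : ℕ} [Fact p.Prime] {V : Type*} [AddCommGroup V] [Module (ZMod p) V]
  {H : Subgroup (V ≃ₗ[ZMod p] V)}

/-- `W` is invariant under the subgroup `A`. -/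
def InvSub (A : Subgroup H) (W : Submodule (ZMod p) V) : Prop :=
  ∀ a ∈ A, ∀ v ∈ W, ((a : H) : V ≃ₗ[ZMod p] V) v ∈ W

theorem exists_min_inv [Finite V] (A : Subgroup H) (W0 : Submodule (ZMod p) V) (h0 : W0 ≠ ⊥)
    (hinv : InvSub A W0) : ∃ W ≤ W0, W ≠ ⊥ ∧ InvSub A W ∧
      ∀ W' ≤ W, InvSub A W' → W' = ⊥ ∨ W' = W := by
  have hwf : WellFounded ((· < ·) : Submodule (ZMod p) V → Submodule (ZMod p) V → Prop) :=
    wellFounded_lt
  obtain ⟨W, ⟨hW1, hW2, hW3⟩, hmin⟩ := hwf.has_min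
    {W | W ≤ W0 ∧ W ≠ ⊥ ∧ InvSub A W} ⟨W0, le_rfl, h0, hinv⟩
  refine ⟨W, hW1, hW2, hW3, fun W' hW' hi => ?_⟩
  by_cases hb : W' = ⊥
  · exact Or.inl hb
  · right
    by_contra hne
    exact hmin W' ⟨hW'.trans hW1, hb, hi⟩ (lt_of_le_of_ne hW' hne)

theorem card_dvd_of_inv [Finite V] (A : Subgroup H)
    (hfree : ∀ a ∈ A, ∀ v : V, v ≠ 0 → ((a : H) : V ≃ₗ[ZMod p] V) v = v → a = 1)
    (W : Submodule (ZMod p) V) (hinv : InvSub A W) :
    Nat.card A ∣ p ^ Module.finrank (ZMod p) W - 1 := by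
  have h := card_dvd_of_semiregular (G := A) (X := V) ((W : Set V) \ {0})
    (fun g x hx => ⟨hinv g.1 g.2 x hx.1, fun h0 => hx.2 (by
      have h1 : ((g : H) : V ≃ₗ[ZMod p] V) x = 0 := h0
      exact (LinearEquiv.map_eq_zero_iff _).mp h1)⟩)
    (fun g x hx hg => Subtype.ext (hfree g.1 g.2 x hx.2 hg))
  rw [Set.ncard_sdiff_singleton_of_mem W.zero_mem] at h
  have h2 : (W : Set V).ncard = p ^ Module.finrank (ZMod p) W := by
    have := Fintype.ofFinite W
    rw [← Nat.card_coe_set_eq]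
    show Nat.card W = _
    rw [Nat.card_eq_fintype_card, Module.card_eq_pow_finrank (K := ZMod p), ZMod.card]
  rwa [h2] at h

open scoped IsMulCommutative in
theorem cyclic_of_min_inv [Finite V] (A : Subgroup H) [hAc : IsMulCommutative A]
    (hfree : ∀ a ∈ A, ∀ v : V, v ≠ 0 → ((a : H) : V ≃ₗ[ZMod p] V) v = v → a = 1)
    (W : Submodule (ZMod p) V) (hW : W ≠ ⊥) (hinv : InvSub A W)
    (hmin : ∀ W' ≤ W, InvSub A W' → W' = ⊥ ∨ W' = W) : IsCyclic A := by
  classical
  obtain ⟨w, hwW, hw0⟩ := (Submodule.ne_bot_iff W).mp hW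
  let S : Set (Module.End (ZMod p) V) :=
    {f | ∃ a ∈ A, f = (((a : H) : V ≃ₗ[ZMod p] V) : V →ₗ[ZMod p] V)}
  have hcomm : ∀ x ∈ S, ∀ y ∈ S, x * y = y * x := by
    rintro _ ⟨a, ha, rfl⟩ _ ⟨b, hb, rfl⟩
    have h := setLike_mul_comm ha hb
    ext v
    exact congrArg (fun t : H => (t : V ≃ₗ[ZMod p] V) v) h
  haveI := Algebra.isMulCommutative_adjoin (ZMod p) hcomm
  set R := Algebra.adjoin (ZMod p) S with hR
  have c1 : ∀ U : Submodule (ZMod p) V, InvSub A U → ∀ r ∈ R, ∀ v ∈ U, r v ∈ U := by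
    intro U hU r hr
    induction hr using Algebra.adjoin_induction with
    | mem x hx =>
      obtain ⟨a, ha, rfl⟩ := hx
      exact fun v hv => hU a ha v hv
    | algebraMap c =>
      intro v hv
      rw [Module.algebraMap_end_apply]
      exact U.smul_mem c hv
    | add x y _ _ hx hy => exact fun v hv => U.add_mem (hx v hv) (hy v hv)
    | mul x y _ _ hx hy => exact fun v hv => hx _ (hy v hv)
  let cyc : V → Submodule (ZMod p) V := fun x =>
    (Subalgebra.toSubmodule R).map (LinearMap.applyₗ x : (V →ₗ[ZMod p] V) →ₗ[ZMod p] V)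
  have hcyc : ∀ x y, y ∈ cyc x ↔ ∃ r ∈ R, r x = y := by
    intro x y
    simp only [cyc, Submodule.mem_map, Subalgebra.mem_toSubmodule, LinearMap.applyₗ_apply_apply]
  have hcycinv : ∀ x, InvSub A (cyc x) := by
    intro x a ha v hv
    obtain ⟨r, hr, rfl⟩ := (hcyc x v).mp hv
    exact (hcyc x _).mpr ⟨(((a : H) : V ≃ₗ[ZMod p] V) : V →ₗ[ZMod p] V) * r,
      R.mul_mem (Algebra.subset_adjoin ⟨a, ha, rfl⟩) hr, rfl⟩
  let I : Ideal R :=
    { carrier := {r | (r : Module.End (ZMod p) V) w = 0}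
      add_mem' := fun {a b} ha hb => by
        show ((a : Module.End (ZMod p) V) + b) w = 0
        rw [LinearMap.add_apply, ha, hb, add_zero]
      zero_mem' := rfl
      smul_mem' := fun c r hr => by
        show ((c : Module.End (ZMod p) V) * r) w = 0
        rw [Module.End.mul_apply, hr, map_zero] }
  have hI : ∀ r : R, r ∈ I ↔ (r : Module.End (ZMod p) V) w = 0 := fun r => Iff.rfl
  have hprime : I.IsPrime := by
    refine ⟨?_, ?_⟩
    · intro h
      have : (1 : R) ∈ I := h ▸ Submodule.mem_top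
      exact hw0 this
    · intro r s hrs
      by_contra hcon
      push Not at hcon
      obtain ⟨hr, hs⟩ := hcon
      rw [hI] at hr hs hrs
      have hsW : (s : Module.End (ZMod p) V) w ∈ W := c1 W hinv s s.2 w hwW
      have hle : cyc ((s : Module.End (ZMod p) V) w) ≤ W := by
        intro y hy
        obtain ⟨t, ht, rfl⟩ := (hcyc _ y).mp hy
        exact c1 W hinv t ht _ hsW
      rcases hmin _ hle (hcycinv _) with h | h
      · have : (s : Module.End (ZMod p) V) w ∈ cyc ((s : Module.End (ZMod p) V) w) :=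
          (hcyc _ _).mpr ⟨1, R.one_mem, rfl⟩
        rw [h] at this
        exact hs ((Submodule.mem_bot _).mp this)
      · rw [← h] at hwW
        obtain ⟨t, ht, htw⟩ := (hcyc _ _).mp hwW
        apply hr
        have e1 : r * (⟨t, ht⟩ * s) = ⟨t, ht⟩ * (r * s) := by ring
        have e2 := congrArg (fun z : R => (z : Module.End (ZMod p) V) w) e1
        have e3 : (r : Module.End (ZMod p) V) (t ((s : Module.End (ZMod p) V) w)) =
          t (((r * s : R) : Module.End (ZMod p) V) w) := e2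
        rw [htw, hrs, map_zero] at e3
        exact e3
  let g : A →* R :=
    { toFun := fun a => ⟨(((a : H) : V ≃ₗ[ZMod p] V) : V →ₗ[ZMod p] V),
        Algebra.subset_adjoin ⟨a.1, a.2, rfl⟩⟩
      map_one' := rfl
      map_mul' := fun a b => rfl }
  let f : A →* R ⧸ I := (Ideal.Quotient.mk I : R →* R ⧸ I).comp g
  haveI : Finite (V ≃ₗ[ZMod p] V) := Finite.of_injective (fun e => (e : V → V)) DFunLike.coe_injective
  haveI : IsDomain (R ⧸ I) := Ideal.Quotient.isDomain I
  refine isCyclic_of_injective_ringHom (R := R ⧸ I) f ?_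
  intro a b hab
  have h1 : g a - g b ∈ I := Ideal.Quotient.eq.mp hab
  rw [hI] at h1
  have h2 : ((a : H) : V ≃ₗ[ZMod p] V) w - ((b : H) : V ≃ₗ[ZMod p] V) w = 0 := h1
  have h3 : (((b⁻¹ * a : A) : H) : V ≃ₗ[ZMod p] V) w = w := by
    show ((b : H) : V ≃ₗ[ZMod p] V)⁻¹ (((a : H) : V ≃ₗ[ZMod p] V) w) = w
    rw [sub_eq_zero.mp h2]
    exact LinearEquiv.symm_apply_apply _ _
  have h4 := hfree _ (b⁻¹ * a).2 w hw0 h3
  have h5 : b⁻¹ * a = 1 := Subtype.ext h4
  exact (inv_mul_eq_one.mp h5).symm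

end

end Cfsg.Agent.Lib.Helper5
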