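import Mathlib

set_option autoImplicit false
set_option linter.unusedSimpArgs false

/-! Minimal degree of multiply transitive groups. -/

namespace Cfsg.Agent.Lib.Helper5.MinDeg

open Equiv Equiv.Perm MulAction

variable {α : Type*} [Fintype α] [DecidableEq α]

omit [Fintype α] [DecidableEq α] in
theorem app_inv (t : Perm α) (x : α) : t (t⁻¹ x) = x := by
  rw [← Perm.mul_apply, mul_inv_cancel, Perm.one_apply]

theorem exists_fix_move (G : Subgroup (Perm α)) {k : ℕ} (hkn : k ≤ Fintype.card α)
    (hG : IsMultiplyPretransitive G α k) (F : Finset α) (hF : F.card + 1 ≤ k) {b b' : α}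
    (hb : b ∉ F) (hb' : b' ∉ F) : ∃ t ∈ G, (∀ x ∈ F, t x = x) ∧ t b = b' := by
  have h1 : IsMultiplyPretransitive (fixingSubgroup G (F : Set α))
      (SubMulAction.ofFixingSubgroup G (F : Set α)) 1 := by
    apply SubMulAction.ofFixingSubgroup.isMultiplyPretransitive' (n := k) (F : Set α)
    · rw [Set.ncard_coe_finset]; exact hF
    · rw [ENat.card_eq_coe_fintype_card]; exact_mod_cast hkn
  rw [is_one_pretransitive_iff] at h1
  obtain ⟨t, ht⟩ := h1.exists_smul_eq (⟨b, fun h => hb (by simpa using h)⟩ : SubMulAction.ofFixingSubgroup G (F : Set α))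
    ⟨b', fun h => hb' (by simpa using h)⟩
  refine ⟨((t : G) : Perm α), (t : G).2, ?_, ?_⟩
  · intro x hx
    exact (mem_fixingSubgroup_iff G).mp t.2 x (by simpa using hx)
  · exact congrArg Subtype.val ht

/-- the points of `F` whose image leaves `F` -/
def bad (g : Perm α) (F : Finset α) : Finset α := F.filter (fun x => g x ∉ F)

theorem support_subset (g t : Perm α) (F : Finset α) (hF : F ⊆ g.support)
    (ht : ∀ x ∈ F, t x = x) :
    (g⁻¹ * (t * g * t⁻¹)).support ⊆ bad g F ∪ (g.support \ F) ∪ (g.support \ F).image t := by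
  intro x hx
  by_contra hcon
  simp only [Finset.mem_union, not_or] at hcon
  obtain ⟨⟨h1, h2⟩, h3⟩ := hcon
  rw [mem_support] at hx
  apply hx
  have hti : ∀ y ∈ F, t⁻¹ y = y := by
    intro y hy
    rw [inv_eq_iff_eq, ht y hy]
  show g⁻¹ (t (g (t⁻¹ x))) = x
  rw [inv_eq_iff_eq]
  by_cases hxF : x ∈ F
  · have hg : g x ∈ F := by
      by_contra hg
      exact h1 (Finset.mem_filter.mpr ⟨hxF, hg⟩)
    rw [hti x hxF, ht _ hg]
  · have hxs : x ∉ g.support := fun h => h2 (Finset.mem_sdiff.mpr ⟨h, hxF⟩)
    have hy : t⁻¹ x ∉ g.support := by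
      intro hy
      by_cases hyF : t⁻¹ x ∈ F
      · have := ht _ hyF
        rw [app_inv] at this
        rw [← this] at hyF
        exact hxF hyF
      · apply h3
        rw [Finset.mem_image]
        exact ⟨t⁻¹ x, Finset.mem_sdiff.mpr ⟨hy, hyF⟩, app_inv _ _⟩
    rw [notMem_support] at hxs hy
    rw [hy, app_inv, hxs]

theorem reduce (G : Subgroup (Perm α)) {k : ℕ} (hkn : k ≤ Fintype.card α)
    (hG : IsMultiplyPretransitive G α k) {g : Perm α} (hg : g ∈ G) (F : Finset α)
    (hF : F ⊆ g.support) (hFk : F.card + 1 ≤ k) {e b' : α} (he : e ∈ F) (hge : g e ∉ F)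
    (hb' : b' ∉ F) (hne : b' ≠ g e) :
    ∃ c ∈ G, c ≠ 1 ∧ c.support.card ≤ (bad g F).card + (g.support \ F).card +
      ((g.support \ F).card - 1) + (if b' ∈ g.support then 0 else 1) := by
  obtain ⟨t, htG, htF, htb⟩ := exists_fix_move G hkn hG F hFk hge hb'
  refine ⟨g⁻¹ * (t * g * t⁻¹), G.mul_mem (G.inv_mem hg) (G.mul_mem (G.mul_mem htG hg) (G.inv_mem htG)),
    ?_, ?_⟩
  · intro h1
    have h2 := congrArg (fun c : Perm α => c e) h1
    have hte : t⁻¹ e = e := by rw [inv_eq_iff_eq, htF e he]
    have h3 : g⁻¹ (t (g (t⁻¹ e))) = e := h2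
    rw [hte, htb, inv_eq_iff_eq] at h3
    exact hne h3
  · have hbR : g e ∈ g.support \ F := by
      rw [Finset.mem_sdiff]
      refine ⟨?_, hge⟩
      rw [apply_mem_support]
      exact hF he
    have hsub : (g⁻¹ * (t * g * t⁻¹)).support ⊆ bad g F ∪ (g.support \ F) ∪
        ((g.support \ F).erase (g e)).image t ∪ (if b' ∈ g.support then ∅ else {b'}) := by
      intro x hx
      have := support_subset g t F hF htF hx
      simp only [Finset.mem_union] at this ⊢
      rcases this with (h | h) | h
      · exact Or.inl (Or.inl (Or.inl h))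
      · exact Or.inl (Or.inl (Or.inr h))
      · obtain ⟨y, hy, rfl⟩ := Finset.mem_image.mp h
        by_cases hyb : y = g e
        · rw [hyb, htb]
          by_cases hb's : b' ∈ g.support
          · exact Or.inl (Or.inl (Or.inr (Finset.mem_sdiff.mpr ⟨hb's, hb'⟩)))
          · right
            rw [if_neg hb's]
            exact Finset.mem_singleton_self _
        · exact Or.inl (Or.inr (Finset.mem_image.mpr ⟨y, Finset.mem_erase.mpr ⟨hyb, hy⟩, rfl⟩))
    refine (Finset.card_le_card hsub).trans ?_
    refine (Finset.card_union_le _ _).trans ?_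
    refine Nat.add_le_add ((Finset.card_union_le _ _).trans
      (Nat.add_le_add (Finset.card_union_le _ _) ?_)) ?_
    · refine Finset.card_image_le.trans ?_
      rw [Finset.card_erase_of_mem hbR]
    · split_ifs <;> simp

theorem exists_path (g : Perm α) (j : ℕ) (hj : j ≤ g.support.card) :
    ∃ F ⊆ g.support, F.card = j ∧ (bad g F).card ≤ 1 := by
  induction j with
  | zero => exact ⟨∅, Finset.empty_subset _, rfl, by simp [bad]⟩
  | succ j ih =>
    obtain ⟨F, hF, hc, hb⟩ := ih (by omega)
    have key : ∀ y ∈ g.support, y ∉ F → (∀ x ∈ F, g x ∈ insert y F) →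
        ∃ F' ⊆ g.support, F'.card = j + 1 ∧ (bad g F').card ≤ 1 := by
      intro y hy hyF hall
      refine ⟨insert y F, Finset.insert_subset hy hF, by rw [Finset.card_insert_of_notMem hyF, hc], ?_⟩
      have : bad g (insert y F) ⊆ {y} := by
        intro x hx
        obtain ⟨hx1, hx2⟩ := Finset.mem_filter.mp hx
        rcases Finset.mem_insert.mp hx1 with h | h
        · exact Finset.mem_singleton.mpr h
        · exact absurd (hall x h) hx2
      exact (Finset.card_le_card this).trans (by simp)
    rcases Nat.le_one_iff_eq_zero_or_eq_one.mp hb with h0 | h1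
    · rw [Finset.card_eq_zero] at h0
      obtain ⟨y, hy, hyF⟩ : ∃ y ∈ g.support, y ∉ F := by
        by_contra hcon
        push Not at hcon
        have := Finset.card_le_card (show g.support ⊆ F from hcon)
        omega
      apply key y hy hyF
      intro x hx
      by_contra hgx
      have : x ∈ bad g F := Finset.mem_filter.mpr ⟨hx, fun h => hgx (Finset.mem_insert_of_mem h)⟩
      rw [h0] at this
      exact absurd this (Finset.notMem_empty _)
    · obtain ⟨e, he⟩ := Finset.card_eq_one.mp h1
      have heb : e ∈ bad g F := by rw [he]; exact Finset.mem_singleton_self _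
      obtain ⟨heF, hge⟩ := Finset.mem_filter.mp heb
      apply key (g e) (by rw [apply_mem_support]; exact hF heF) hge
      intro x hx
      by_cases hxe : x = e
      · rw [hxe]; exact Finset.mem_insert_self _ _
      · by_contra hgx
        have : x ∈ bad g F := Finset.mem_filter.mpr ⟨hx, fun h => hgx (Finset.mem_insert_of_mem h)⟩
        rw [he] at this
        exact hxe (Finset.mem_singleton.mp this)

theorem step_small (G : Subgroup (Perm α)) {k : ℕ} (hkn : k ≤ Fintype.card α)
    (hG : IsMultiplyPretransitive G α k) {g : Perm α} (hg : g ∈ G)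
    (hm4 : 4 ≤ g.support.card) (hmk : g.support.card ≤ k) :
    ∃ c ∈ G, c ≠ 1 ∧ c.support.card < g.support.card := by
  by_cases hex : ∃ b', b' ∉ g.support
  · obtain ⟨b', hb'⟩ := hex
    obtain ⟨e, he⟩ : g.support.Nonempty := by rw [← Finset.card_pos]; omega
    have hge : g e ∈ g.support := by rw [apply_mem_support]; exact he
    have hne : e ≠ g e := fun h => (mem_support.mp he) h.symm
    have hFc : (g.support.erase (g e)).card = g.support.card - 1 := Finset.card_erase_of_mem hge
    obtain ⟨c, hc, hc1, hcard⟩ := reduce G hkn hG hg (g.support.erase (g e)) (Finset.erase_subset _ _)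
      (by omega) (e := e) (b' := b') (Finset.mem_erase.mpr ⟨hne, he⟩) (Finset.notMem_erase _ _)
      (fun h => hb' (Finset.mem_of_mem_erase h)) (fun h => hb' (h ▸ hge))
    refine ⟨c, hc, hc1, ?_⟩
    have h1 : (bad g (g.support.erase (g e))).card ≤ 1 := by
      have : bad g (g.support.erase (g e)) ⊆ {e} := by
        intro x hx
        obtain ⟨hx1, hx2⟩ := Finset.mem_filter.mp hx
        have hxs : g x ∈ g.support := by
          rw [apply_mem_support]; exact Finset.mem_of_mem_erase hx1
        have : g x = g e := by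
          by_contra hcon
          exact hx2 (Finset.mem_erase.mpr ⟨hcon, hxs⟩)
        exact Finset.mem_singleton.mpr (g.injective this)
      exact (Finset.card_le_card this).trans (by simp)
    have h2 : (g.support \ g.support.erase (g e)).card = 1 := by
      rw [Finset.card_sdiff_of_subset (Finset.erase_subset _ _), hFc]
      omega
    rw [h2, if_neg hb'] at hcard
    omega
  · push Not at hex
    have huniv : g.support = Finset.univ := Finset.eq_univ_iff_forall.mpr hex
    have hcard : g.support.card = Fintype.card α := by rw [huniv, Finset.card_univ]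
    have htop : G = ⊤ := by
      apply Equiv.Perm.eq_top_of_isMultiplyPretransitive
      rw [Nat.card_eq_fintype_card]
      exact isMultiplyPretransitive_of_le (n := k) (by omega) (by rw [Nat.card_eq_fintype_card]; exact hkn)
    obtain ⟨a, b, hab⟩ : ∃ a b : α, a ≠ b := by
      have : 1 < Fintype.card α := by omega
      exact Fintype.one_lt_card_iff.mp this
    refine ⟨swap a b, by rw [htop]; trivial, ?_, ?_⟩
    · intro h
      exact hab (swap_eq_one_iff.mp h)
    · rw [card_support_swap hab]; omega

theorem step_large (G : Subgroup (Perm α)) {k : ℕ} (hkn : k ≤ Fintype.card α)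
    (hG : IsMultiplyPretransitive G α k) {g : Perm α} (hg : g ∈ G)
    (hm4 : 4 ≤ g.support.card) (hm : g.support.card < 2 * k - 2) (hmk : k < g.support.card) :
    ∃ c ∈ G, c ≠ 1 ∧ c.support.card < g.support.card := by
  obtain ⟨F₀, hF₀, hc₀, hb₀⟩ := exists_path g (k - 1) (by omega)
  have hR₀ : (g.support \ F₀).card = g.support.card - (k - 1) := by
    rw [Finset.card_sdiff_of_subset hF₀, hc₀]
  rcases Nat.le_one_iff_eq_zero_or_eq_one.mp hb₀ with h0 | h1
  · rw [Finset.card_eq_zero] at h0
    have hcl : ∀ x ∈ F₀, g x ∈ F₀ := by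
      intro x hx
      by_contra hgx
      have : x ∈ bad g F₀ := Finset.mem_filter.mpr ⟨hx, hgx⟩
      rw [h0] at this
      exact absurd this (Finset.notMem_empty _)
    have himg : F₀.image g = F₀ := by
      apply Finset.eq_of_subset_of_card_le
      · intro x hx
        obtain ⟨y, hy, rfl⟩ := Finset.mem_image.mp hx
        exact hcl y hy
      · rw [Finset.card_image_of_injective _ g.injective]
    have hcl' : ∀ y ∈ g.support \ F₀, g y ∈ g.support \ F₀ := by
      intro y hy
      obtain ⟨hy1, hy2⟩ := Finset.mem_sdiff.mp hy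
      refine Finset.mem_sdiff.mpr ⟨by rw [apply_mem_support]; exact hy1, fun h => ?_⟩
      rw [← himg] at h
      obtain ⟨x, hx, hxy⟩ := Finset.mem_image.mp h
      exact hy2 (g.injective hxy ▸ hx)
    obtain ⟨z, hz⟩ : F₀.Nonempty := by rw [← Finset.card_pos]; omega
    obtain ⟨y, hy⟩ : (g.support \ F₀).Nonempty := by rw [← Finset.card_pos]; omega
    obtain ⟨hy1, hy2⟩ := Finset.mem_sdiff.mp hy
    by_cases htight : g.support.card = 2 * k - 3
    · -- `F = R₀ ∪ {z}`
      have hzR : z ∉ g.support \ F₀ := fun h => (Finset.mem_sdiff.mp h).2 hz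
      have hFc : (insert z (g.support \ F₀)).card = k - 1 := by
        rw [Finset.card_insert_of_notMem hzR, hR₀]; omega
      have hFs : insert z (g.support \ F₀) ⊆ g.support :=
        Finset.insert_subset (hF₀ hz) Finset.sdiff_subset
      have hgz : g z ∉ insert z (g.support \ F₀) := by
        intro h
        rcases Finset.mem_insert.mp h with h | h
        · exact (mem_support.mp (hF₀ hz)) h
        · exact (Finset.mem_sdiff.mp h).2 (hcl z hz)
      have hRc : (g.support \ insert z (g.support \ F₀)).card = g.support.card - (k - 1) := by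
        rw [Finset.card_sdiff_of_subset hFs, hFc]
      obtain ⟨b', hb', hb'ne⟩ := Finset.exists_mem_ne
        (s := g.support \ insert z (g.support \ F₀)) (by omega) (g z)
      obtain ⟨hb'1, hb'2⟩ := Finset.mem_sdiff.mp hb'
      obtain ⟨c, hc, hc1, hcard⟩ := reduce G hkn hG hg _ hFs (by omega) (e := z) (b' := b')
        (Finset.mem_insert_self _ _) hgz hb'2 hb'ne
      refine ⟨c, hc, hc1, ?_⟩
      have hbad : (bad g (insert z (g.support \ F₀))).card ≤ 1 := by
        have : bad g (insert z (g.support \ F₀)) ⊆ {z} := by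
          intro x hx
          obtain ⟨hx1, hx2⟩ := Finset.mem_filter.mp hx
          rcases Finset.mem_insert.mp hx1 with h | h
          · exact Finset.mem_singleton.mpr h
          · exact absurd (Finset.mem_insert_of_mem (hcl' x h)) hx2
        exact (Finset.card_le_card this).trans (by simp)
      rw [hRc, if_pos hb'1] at hcard
      omega
    · -- `F = F₀ - z + y`
      have hyz : y ≠ z := fun h => hy2 (h ▸ hz)
      have hyE : y ∉ F₀.erase z := fun h => hy2 (Finset.mem_of_mem_erase h)
      have hFc : (insert y (F₀.erase z)).card = k - 1 := by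
        rw [Finset.card_insert_of_notMem hyE, Finset.card_erase_of_mem hz, hc₀]; omega
      have hFs : insert y (F₀.erase z) ⊆ g.support :=
        Finset.insert_subset hy1 ((Finset.erase_subset _ _).trans hF₀)
      have hgy := Finset.mem_sdiff.mp (hcl' y hy)
      have hgyF : g y ∉ insert y (F₀.erase z) := by
        intro h
        rcases Finset.mem_insert.mp h with h | h
        · exact (mem_support.mp hy1) h
        · exact hgy.2 (Finset.mem_of_mem_erase h)
      have hzF : z ∉ insert y (F₀.erase z) := by
        intro h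
        rcases Finset.mem_insert.mp h with h | h
        · exact hyz h.symm
        · exact Finset.notMem_erase _ _ h
      have hRc : (g.support \ insert y (F₀.erase z)).card = g.support.card - (k - 1) := by
        rw [Finset.card_sdiff_of_subset hFs, hFc]
      obtain ⟨c, hc, hc1, hcard⟩ := reduce G hkn hG hg _ hFs (by omega) (e := y) (b' := z)
        (Finset.mem_insert_self _ _) hgyF hzF (fun h => hgy.2 (h ▸ hz))
      refine ⟨c, hc, hc1, ?_⟩
      have hbad : (bad g (insert y (F₀.erase z))).card ≤ 2 := by
        have : bad g (insert y (F₀.erase z)) ⊆ {y, g⁻¹ z} := by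
          intro x hx
          obtain ⟨hx1, hx2⟩ := Finset.mem_filter.mp hx
          rcases Finset.mem_insert.mp hx1 with h | h
          · rw [h]; exact Finset.mem_insert_self _ _
          · have hxF := Finset.mem_of_mem_erase h
            have : g x = z := by
              by_contra hcon
              exact hx2 (Finset.mem_insert_of_mem (Finset.mem_erase.mpr ⟨hcon, hcl x hxF⟩))
            rw [Finset.mem_insert, Finset.mem_singleton]
            right
            rw [eq_comm, inv_eq_iff_eq, this]
        exact (Finset.card_le_card this).trans Finset.card_le_two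
      rw [hRc, if_pos (hF₀ hz)] at hcard
      omega
  · obtain ⟨e, he⟩ := Finset.card_eq_one.mp h1
    have heb : e ∈ bad g F₀ := by rw [he]; exact Finset.mem_singleton_self _
    obtain ⟨heF, hge⟩ := Finset.mem_filter.mp heb
    obtain ⟨b', hb', hb'ne⟩ := Finset.exists_mem_ne (s := g.support \ F₀) (by omega) (g e)
    obtain ⟨hb'1, hb'2⟩ := Finset.mem_sdiff.mp hb'
    obtain ⟨c, hc, hc1, hcard⟩ := reduce G hkn hG hg _ hF₀ (by omega) (e := e) (b' := b')
      heF hge hb'2 hb'ne
    refine ⟨c, hc, hc1, ?_⟩
    rw [hR₀, h1, if_pos hb'1] at hcard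
    omega

theorem exists_small (G : Subgroup (Perm α)) {k : ℕ} (hkn : k ≤ Fintype.card α)
    (hG : IsMultiplyPretransitive G α k) :
    ∀ (n : ℕ) (g : Perm α), g ∈ G → g ≠ 1 → g.support.card = n → n < 2 * k - 2 →
      ∃ h ∈ G, h ≠ 1 ∧ h.support.card ≤ 3 := by
  intro n
  induction n using Nat.strong_induction_on with
  | _ n ih =>
    intro g hg hg1 hn hlt
    by_cases h3 : n ≤ 3
    · exact ⟨g, hg, hg1, hn ▸ h3⟩
    · obtain ⟨c, hc, hc1, hcard⟩ : ∃ c ∈ G, c ≠ 1 ∧ c.support.card < g.support.card := by
        rcases le_or_gt g.support.card k with h | h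
        · exact step_small G hkn hG hg (by omega) h
        · exact step_large G hkn hG hg (by omega) (by omega) h
      exact ih _ (hn ▸ hcard) c hc hc1 rfl (by omega)

end Cfsg.Agent.Lib.Helper5.MinDeg
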