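import Mathlib
import Cfsg.Prelude.Def_Perm

set_option autoImplicit false

namespace Cfsg.Agent.Lib.Helper5

variable {F : Type*} [Cfsg.NearField F]

theorem nf_add_mul (a b c : F) : (a + b) * c = a * c + b * c := Cfsg.NearField.right_distrib a b c

theorem nf_mul_zero (a : F) : a * 0 = 0 := Cfsg.NearField.mul_zero a

theorem nf_zero_mul (c : F) : (0 : F) * c = 0 := by
  have h := nf_add_mul (0 : F) 0 c
  rw [add_zero] at h
  exact left_eq_add.mp h

theorem nf_neg_mul (a c : F) : (-a) * c = -(a * c) := by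
  have h := nf_add_mul (-a) a c
  rw [neg_add_cancel, nf_zero_mul] at h
  exact eq_neg_of_add_eq_zero_left h.symm

theorem nf_sub_mul (a b c : F) : (a - b) * c = a * c - b * c := by
  rw [sub_eq_add_neg, nf_add_mul, nf_neg_mul, ← sub_eq_add_neg]

theorem nf_nsmul_mul (n : ℕ) (a c : F) : (n • a) * c = n • (a * c) := by
  induction n with
  | zero => simp [nf_zero_mul]
  | succ k ih => rw [succ_nsmul, succ_nsmul, nf_add_mul, ih]

theorem nf_mul_ne_zero {a c : F} (ha : a ≠ 0) (hc : c ≠ 0) : a * c ≠ 0 := by
  intro h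
  obtain ⟨c', h1, -⟩ := Cfsg.NearField.exists_inv c hc
  apply ha
  have : a * c * c' = 0 * c' := by rw [h]
  rwa [mul_assoc, h1, mul_one, nf_zero_mul] at this

theorem nf_zero_ne_one : (0 : F) ≠ 1 := Cfsg.NearField.zero_ne_one

/-- every element is a right multiple of a given nonzero element -/
theorem nf_exists_mul_eq {u : F} (hu : u ≠ 0) (x : F) : ∃ c : F, u * c = x := by
  obtain ⟨u', h1, -⟩ := Cfsg.NearField.exists_inv u hu
  exact ⟨u' * x, by rw [← mul_assoc, h1, one_mul]⟩

/-- the affine permutation `x ↦ x * a + b`. -/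
noncomputable def nfAff (a b : F) (ha : a ≠ 0) : Equiv.Perm F where
  toFun x := x * a + b
  invFun y := (y - b) * (Cfsg.NearField.exists_inv a ha).choose
  left_inv x := by
    have h := (Cfsg.NearField.exists_inv a ha).choose_spec.1
    show (x * a + b - b) * _ = x
    rw [add_sub_cancel_right, mul_assoc, h, mul_one]
  right_inv y := by
    have h := (Cfsg.NearField.exists_inv a ha).choose_spec.2
    show (y - b) * _ * a + b = y
    rw [mul_assoc, h, mul_one, sub_add_cancel]

theorem nfAff_apply (a b : F) (ha : a ≠ 0) (x : F) : nfAff a b ha x = x * a + b := rfl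

end Cfsg.Agent.Lib.Helper5
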