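import Mathlib

set_option autoImplicit false

namespace Cfsg.Agent.Lib.Helper5

open MulAction

variable {α : Type*}

theorem semireg_centralizer (T : Subgroup (Equiv.Perm α)) [IsPretransitive T α]
    {c : Equiv.Perm α} (hc : c ∈ Subgroup.centralizer (T : Set (Equiv.Perm α))) {a : α}
    (h : c a = a) : c = 1 := by
  ext b
  obtain ⟨g, rfl⟩ := exists_smul_eq T a b
  have h1 := hc g.1 g.2
  have h2 := congrArg (fun f : Equiv.Perm α => f a) h1
  have h3 : c (g • a) = g • (c a) := h2.symm
  rw [h3, h]; rfl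

theorem isPretransitive_map (G : Subgroup (Equiv.Perm α)) (M : Subgroup G)
    [h : IsPretransitive M α] : IsPretransitive (M.map G.subtype) α :=
  ⟨fun a b => by
    obtain ⟨m, hm⟩ := h.exists_smul_eq a b
    exact ⟨⟨_, Subgroup.mem_map_of_mem _ m.2⟩, hm⟩⟩

theorem centralizer_eq_of_transitive (T N : Subgroup (Equiv.Perm α)) [IsPretransitive T α]
    [IsPretransitive N α] (h : N ≤ Subgroup.centralizer (T : Set (Equiv.Perm α))) :
    Subgroup.centralizer (T : Set (Equiv.Perm α)) = N := by
  apply le_antisymm _ h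
  intro c hc
  rcases isEmpty_or_nonempty α with he | ⟨⟨a⟩⟩
  · have : c = 1 := Equiv.ext (fun x => (he.false x).elim)
    rw [this]; exact one_mem _
  · obtain ⟨n, hn⟩ := exists_smul_eq N a (c a)
    have hn' : (n : Equiv.Perm α) a = c a := hn
    have h1 : (n : Equiv.Perm α)⁻¹ * c = 1 := by
      apply semireg_centralizer T (mul_mem (inv_mem (h n.2)) hc) (a := a)
      rw [Equiv.Perm.mul_apply, ← hn']; simp
    have h2 : c = n := by
      rw [inv_mul_eq_one] at h1; exact h1.symm
    rw [h2]; exact n.2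

theorem stabilizer_eq_bot_of_le_centralizer (G : Subgroup (Equiv.Perm α)) (M : Subgroup G)
    (T : Subgroup (Equiv.Perm α)) [IsPretransitive T α]
    (h : M.map G.subtype ≤ Subgroup.centralizer (T : Set (Equiv.Perm α))) (a : α) :
    stabilizer M a = ⊥ := by
  rw [eq_bot_iff]; intro m hm; rw [Subgroup.mem_bot]
  have : ((m : G) : Equiv.Perm α) = 1 :=
    semireg_centralizer T (h (Subgroup.mem_map_of_mem _ m.2)) (a := a) hm
  exact Subtype.ext (Subtype.ext this)

theorem eq_of_smul_eq {G : Type*} [Group G] [MulAction G α]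
    (h : ∀ a : α, stabilizer G a = ⊥) {g g' : G} {a : α} (hg : g • a = g' • a) : g = g' := by
  have : g⁻¹ * g' ∈ stabilizer G a := by
    rw [mem_stabilizer_iff, mul_smul, ← hg, inv_smul_smul]
  rw [h a, Subgroup.mem_bot] at this
  exact inv_mul_eq_one.mp this

theorem mulEquiv_of_regular_commuting {G : Type*} [Group G] [MulAction G α] (M N : Subgroup G)
    [IsPretransitive M α] [IsPretransitive N α] (hM : ∀ a : α, stabilizer M a = ⊥)
    (hN : ∀ a : α, stabilizer N a = ⊥) (hc : ∀ m ∈ M, ∀ n ∈ N, m * n = n * m) (a : α) :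
    Nonempty (M ≃* N) := by
  choose φ hφ using fun m : M => exists_smul_eq N (m • a) a
  have hmul : ∀ m m' : M, φ (m * m') = φ m * φ m' := by
    intro m m'
    apply eq_of_smul_eq hN (a := (m * m') • a)
    rw [hφ]
    have e1 : (φ m * φ m') • (m * m') • a = ((φ m : G) * ((φ m' : G) * (m : G)) * (m' : G)) • a := by
      simp only [Subgroup.smul_def, Subgroup.coe_mul, mul_smul]
    rw [e1, ← hc m m.2 _ (φ m').2]
    have e2 : ((φ m : G) * ((m : G) * (φ m' : G)) * (m' : G)) • a = φ m • m • (φ m' • m' • a) := by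
      simp only [Subgroup.smul_def, mul_smul]
    rw [e2, hφ, hφ]
  refine ⟨MulEquiv.ofBijective (MonoidHom.mk' φ hmul) ⟨?_, ?_⟩⟩
  · intro m m' h
    have h' : φ m = φ m' := h
    apply eq_of_smul_eq hM (a := a)
    have h1 := hφ m
    have h2 := hφ m'
    rw [h'] at h1
    exact smul_left_cancel (φ m') (h1.trans h2.symm)
  · intro n
    obtain ⟨m, hm⟩ := exists_smul_eq M a (n⁻¹ • a)
    refine ⟨m, ?_⟩
    show φ m = n
    apply eq_of_smul_eq hN (a := m • a)
    rw [hφ, hm, smul_inv_smul]

end Cfsg.Agent.Lib.Helper5
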