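import Mathlib
import Cfsg.Agent.Lib.Helper1.SylowSystem
import Cfsg.Agent.Lib.Helper5.PermBasic

set_option autoImplicit false

namespace Cfsg.Agent.Lib.Helper5

open MulAction

variable {α : Type*} [Fintype α] [DecidableEq α] {p : ℕ} [Fact p.Prime]

/-- Sylow `p`-subgroups of transitive groups of `p`-power degree are transitive. -/
theorem sylow_transitive {G Ω : Type*} [Group G] [Finite G] [MulAction G Ω] [Finite Ω]
    [IsPretransitive G Ω] {f : ℕ} (hcard : Nat.card Ω = p ^ f) (P : Sylow p G) (x y : Ω) :
    ∃ g ∈ (P : Subgroup G), g • x = y := by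
  obtain ⟨g, hg⟩ := exists_smul_eq G x y
  have hidx : (stabilizer G x).index = p ^ f := by
    rw [index_stabilizer, orbit_eq_univ, Set.ncard_univ, hcard]
  have hcop : (P : Subgroup G).index.Coprime (stabilizer G x).index := by
    rw [hidx]
    apply Nat.Coprime.pow_right
    rw [Nat.coprime_comm, Nat.Prime.coprime_iff_not_dvd Fact.out]
    exact P.not_dvd_index
  obtain ⟨a, ha, b, hb, hab⟩ := Cfsg.Agent.Lib.Helper1.exists_mul_of_coprime_index _ _ hcop g
  refine ⟨a, ha, ?_⟩
  rw [← hg, hab, mul_smul]
  congr 1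
  exact hb.symm

theorem card_sylow_prime_degree (hα : Fintype.card α = p) (G : Subgroup (Equiv.Perm α))
    [IsPretransitive G α] (P : Sylow p G) : Nat.card P = p := by
  have hp : p.Prime := Fact.out
  haveI : Nonempty α := Fintype.card_pos_iff.mp (by rw [hα]; exact hp.pos)
  obtain ⟨x⟩ : Nonempty α := inferInstance
  have h1 : p ∣ Nat.card G := by
    have h2 : (stabilizer G x).index = p := by
      rw [index_stabilizer, orbit_eq_univ, Set.ncard_univ, Nat.card_eq_fintype_card, hα]
    rw [← h2]
    exact Subgroup.index_dvd_card _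
  have h3 : ¬ p ^ 2 ∣ Nat.card G := by
    intro h
    have h4 : Nat.card G ∣ p.factorial := by
      have := Subgroup.card_subgroup_dvd_card G
      rwa [Nat.card_eq_fintype_card (α := Equiv.Perm α), Fintype.card_perm, hα] at this
    have h5 := h.trans h4
    obtain ⟨q, hq⟩ : ∃ q, p = q + 1 := ⟨p - 1, by have := hp.pos; omega⟩
    rw [hq, Nat.factorial_succ, pow_two, Nat.mul_dvd_mul_iff_left (Nat.succ_pos q), ← hq] at h5
    have := (Nat.Prime.dvd_factorial hp).mp h5
    omega
  rw [P.card_eq_multiplicity]
  have h6 : (Nat.card G).factorization p = 1 := by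
    have hG0 : Nat.card G ≠ 0 := Nat.card_pos.ne'
    have h7 : 1 ≤ (Nat.card G).factorization p :=
      (hp.dvd_iff_one_le_factorization hG0).mp h1
    have h8 : ¬ 2 ≤ (Nat.card G).factorization p := by
      intro h
      exact h3 ((hp.pow_dvd_iff_le_factorization hG0).mpr h)
    omega
  rw [h6, pow_one]

theorem centralizer_sylow_prime_degree (hα : Fintype.card α = p) (G : Subgroup (Equiv.Perm α))
    [IsPretransitive G α] (P : Sylow p G) :
    Subgroup.centralizer ((P : Subgroup G) : Set G) = (P : Subgroup G) := by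
  have hp : p.Prime := Fact.out
  haveI : Nonempty α := Fintype.card_pos_iff.mp (by rw [hα]; exact hp.pos)
  obtain ⟨x⟩ : Nonempty α := inferInstance
  have hcard := card_sylow_prime_degree hα G P
  haveI : IsCyclic (P : Subgroup G) := isCyclic_of_prime_card hcard
  have hcomm : ∀ a ∈ (P : Subgroup G), ∀ b ∈ (P : Subgroup G), a * b = b * a := by
    intro a ha b hb
    have := IsCyclic.commGroup.mul_comm (⟨a, ha⟩ : (P : Subgroup G)) ⟨b, hb⟩
    exact congrArg Subtype.val this
  have htr := sylow_transitive (p := p) (f := 1) (G := G) (Ω := α)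
    (by rw [Nat.card_eq_fintype_card, hα, pow_one]) P
  apply le_antisymm
  · intro c hc
    obtain ⟨h, hh, hhx⟩ := htr x (c • x)
    have key : ∀ y : α, (h⁻¹ * c) • y = y := by
      intro y
      obtain ⟨u, hu, rfl⟩ := htr x y
      have h1 : u * c = c * u := Subgroup.mem_centralizer_iff.mp hc u hu
      have h2 : u * h⁻¹ = h⁻¹ * u := hcomm u hu _ (Subgroup.inv_mem _ hh)
      rw [← mul_smul, mul_assoc, ← h1, ← mul_assoc, ← h2, mul_assoc, mul_smul, mul_smul, ← hhx, inv_smul_smul]
    have : h⁻¹ * c = 1 := by
      apply Subtype.ext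
      exact Equiv.ext key
    rw [inv_mul_eq_one] at this
    rw [← this]; exact hh
  · intro c hc
    rw [Subgroup.mem_centralizer_iff]
    intro u hu
    exact hcomm u hu c hc

theorem card_normalizer_sylow_prime_degree (hα : Fintype.card α = p) (G : Subgroup (Equiv.Perm α))
    [IsPretransitive G α] (P : Sylow p G) :
    ∃ d, d ∣ p - 1 ∧ Nat.card (Subgroup.normalizer ((P : Subgroup G) : Set G)) = p * d := by
  have hp : p.Prime := Fact.out
  have hcard := card_sylow_prime_degree hα G P
  haveI : IsCyclic (P : Subgroup G) := isCyclic_of_prime_card hcard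
  let φ := (P : Subgroup G).normalizerMonoidHom
  refine ⟨Nat.card φ.range, ?_, ?_⟩
  · have h1 := Subgroup.card_subgroup_dvd_card φ.range
    rwa [IsCyclic.card_mulAut, hcard, Nat.totient_prime hp] at h1
  · rw [← Subgroup.index_ker, ← Subgroup.card_mul_index φ.ker]
    congr 1
    rw [Subgroup.normalizerMonoidHom_ker, centralizer_sylow_prime_degree hα G P]
    exact (Nat.card_congr (Subgroup.subgroupOfEquivOfLe Subgroup.le_normalizer).toEquiv).trans hcard

end Cfsg.Agent.Lib.Helper5
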