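import Mathlib
import Cfsg.Agent.Lib.Helper5.Qd2
import Cfsg.Agent.Lib.Helper9.QuadLin

set_option autoImplicit false
set_option linter.unusedSimpArgs false

/-! Eigenvectors over the ground field for elements whose `p'`-order divides `q - 1`. -/

namespace Cfsg.Agent.Lib.Helper5.Dk

open Polynomial

variable {K : Type*} [Field K] {W : Type*} [AddCommGroup W] [Module K W]

theorem eig_of_prod (T : Module.End K W) (S : Finset K) : ∀ u : W, u ≠ 0 →
    aeval T (∏ ζ ∈ S, (X - C ζ)) u = 0 → ∃ ζ ∈ S, ∃ w : W, w ≠ 0 ∧ T w = ζ • w := by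
  classical
  induction S using Finset.induction_on with
  | empty => intro u hu h; simp at h; exact absurd h hu
  | insert ζ S hζ ih =>
    intro u hu h
    rw [Finset.prod_insert hζ, map_mul, Module.End.mul_apply] at h
    by_cases h0 : aeval T (∏ ζ ∈ S, (X - C ζ)) u = 0
    · obtain ⟨ζ', h1, w, hw⟩ := ih u hu h0
      exact ⟨ζ', Finset.mem_insert_of_mem h1, w, hw⟩
    · refine ⟨ζ, Finset.mem_insert_self _ _, _, h0, ?_⟩
      simp only [map_sub, aeval_X, aeval_C, LinearMap.sub_apply, Module.algebraMap_end_apply] at h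
      exact sub_eq_zero.mp h

theorem ker_of_pow (T : Module.End K W) (g : K[X]) (n : ℕ) : ∀ u : W, u ≠ 0 →
    aeval T (g ^ n) u = 0 → ∃ u' : W, u' ≠ 0 ∧ aeval T g u' = 0 := by
  induction n with
  | zero => intro u hu h; simp at h; exact absurd h hu
  | succ n ih =>
    intro u hu h
    rw [pow_succ', map_mul, Module.End.mul_apply] at h
    by_cases h0 : aeval T (g ^ n) u = 0
    · exact ih u hu h0
    · exact ⟨_, h0, h⟩

theorem prod_X_sub_C_univ [Fintype K] :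
    (∏ ζ : K, (X - C ζ)) = (X ^ Fintype.card K - X : K[X]) := by
  have hq : 1 < Fintype.card K := Fintype.one_lt_card
  have hm : (X ^ Fintype.card K - X : K[X]).Monic := by
    apply monic_X_pow_sub
    rw [degree_X]
    exact_mod_cast hq
  have := prod_multiset_X_sub_C_of_monic_of_roots_card_eq hm (by
    rw [FiniteField.roots_X_pow_card_sub_X, FiniteField.X_pow_card_sub_X_natDegree_eq K hq]
    simp)
  rw [FiniteField.roots_X_pow_card_sub_X] at this
  exact this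

theorem exists_eig [Fintype K] {p : ℕ} [Fact p.Prime] [CharP K p] (c : Module.End K W) (e k : ℕ)
    (hc : c ^ (p ^ e * k) = 1) (hk : k ∣ Fintype.card K - 1) (hnu : (c - 1) ^ (p ^ e) ≠ 0) :
    ∃ ζ : K, ζ ≠ 1 ∧ ∃ w : W, w ≠ 0 ∧ c w = ζ • w := by
  classical
  obtain ⟨q, hqd⟩ : ∃ q, q = Fintype.card K := ⟨_, rfl⟩
  have hq : 1 < q := by rw [hqd]; exact Fintype.one_lt_card
  have hprod : (∏ ζ : K, (X - C ζ)) = (X ^ q - X : K[X]) := by rw [hqd]; exact prod_X_sub_C_univ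
  rw [← hqd] at hk
  have h1 : c ^ (p ^ e * (q - 1)) = 1 := by
    obtain ⟨m, hm⟩ := hk
    rw [hm, ← mul_assoc, pow_mul, hc, one_pow]
  have h2 : aeval c ((X ^ q - X : K[X]) ^ (p ^ e)) = 0 := by
    rw [sub_pow_char_pow]
    simp only [map_sub, map_pow, aeval_X]
    rw [← pow_mul, sub_eq_zero]
    have : q * p ^ e = p ^ e * (q - 1) + p ^ e := by
      obtain ⟨r, hr⟩ : ∃ r, q = r + 1 := ⟨q - 1, by omega⟩
      rw [hr]; simp; ring
    rw [this, pow_add, h1, one_mul]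
  obtain ⟨v, hv⟩ : ∃ v, ((c - 1) ^ (p ^ e)) v ≠ 0 := by
    by_contra h; push Not at h; exact hnu (LinearMap.ext h)
  have hsplit : (X ^ q - X : K[X]) = (∏ ζ ∈ Finset.univ.erase (1:K), (X - C ζ)) * (X - C 1) := by
    rw [← hprod, Finset.prod_erase_mul _ _ (Finset.mem_univ 1)]
  have h3 : aeval c ((∏ ζ ∈ Finset.univ.erase (1:K), (X - C ζ)) ^ (p ^ e))
      (((c - 1) ^ (p ^ e)) v) = 0 := by
    have : aeval c ((X ^ q - X : K[X]) ^ (p ^ e)) v = 0 := by rw [h2]; rfl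
    rw [hsplit, mul_pow, map_mul, Module.End.mul_apply] at this
    simpa using this
  obtain ⟨u', hu', h4⟩ := ker_of_pow c _ _ _ hv h3
  obtain ⟨ζ, hζ, w, hw, hcw⟩ := eig_of_prod c _ u' hu' h4
  exact ⟨ζ, (Finset.mem_erase.mp hζ).1, w, hw, hcw⟩

theorem alg1 {R : Type*} [Ring R] (X Y : R) (hX : X * X = 0) (hY : Y * Y = 0) :
    (X * Y + Y * X) * ((1 + X) * (1 + Y)) =
      ((1 + X) * (1 + Y) - 1) * ((1 + X) * (1 + Y) - 1) := by
  have hX' : ∀ Z, X * (X * Z) = 0 := fun Z => by rw [← mul_assoc, hX, zero_mul]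
  have hY' : ∀ Z, Y * (Y * Z) = 0 := fun Z => by rw [← mul_assoc, hY, zero_mul]
  have e : (1 + X) * (1 + Y) - 1 = X + Y + X * Y := by noncomm_ring
  rw [e]
  simp only [mul_add, add_mul, mul_one, one_mul, mul_assoc, hX, hY, hX', hY', mul_zero, add_zero,
    zero_add]
  abel

theorem alg2 {R : Type*} [Ring R] (X Y : R) (hX : X * X = 0) (hY : Y * Y = 0) :
    (X * Y + Y * X) * ((1 + X) * (1 + Y)) = ((1 + X) * (1 + Y)) * (X * Y + Y * X) := by
  have hX' : ∀ Z, X * (X * Z) = 0 := fun Z => by rw [← mul_assoc, hX, zero_mul]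
  have hY' : ∀ Z, Y * (Y * Z) = 0 := fun Z => by rw [← mul_assoc, hY, zero_mul]
  simp only [mul_add, add_mul, mul_one, one_mul, mul_assoc, hX, hY, hX', hY', mul_zero, add_zero,
    zero_add]
  abel

theorem conf_of_eigen {Γ : Type*} [Group Γ] (ρ : Γ →* Module.End K W) (x y : Γ)
    (hx : (ρ x - 1) * (ρ x - 1) = 0) (hy : (ρ y - 1) * (ρ y - 1) = 0) {μ : K} {v : W}
    (hμ : μ ≠ 0) (hv : v ≠ 0)
    (hLv : ((ρ x - 1) * (ρ y - 1) + (ρ y - 1) * (ρ x - 1)) v = μ • v) :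
    ∃ (u w : W), Conf ρ x y u w μ := by
  set X := ρ x - 1 with hX
  set Y := ρ y - 1 with hY
  have hXX : ∀ z, X (X z) = 0 := fun z => by
    rw [← Module.End.mul_apply, hx]; rfl
  have hYY : ∀ z, Y (Y z) = 0 := fun z => by
    rw [← Module.End.mul_apply, hy]; rfl
  have hL : ∀ z, (X * Y + Y * X) z = X (Y z) + Y (X z) := fun z => rfl
  obtain ⟨u, hu0, hXu, hLu⟩ : ∃ u : W, u ≠ 0 ∧ X u = 0 ∧ X (Y u) + Y (X u) = μ • u := by
    by_cases hXv : X v = 0
    · exact ⟨v, hv, hXv, by rw [← hL, hLv]⟩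
    · refine ⟨X v, hXv, hXX v, ?_⟩
      rw [hXX, map_zero, add_zero]
      have h1 : X (Y v) + Y (X v) = μ • v := by rw [← hL, hLv]
      have h3 := congrArg X h1
      rw [map_add, hXX, zero_add, map_smul] at h3
      exact h3
  rw [hXu, map_zero, add_zero] at hLu
  have hρx : ∀ z, ρ x z = z + X z := fun z => by rw [hX]; simp
  have hρy : ∀ z, ρ y z = z + Y z := fun z => by rw [hY]; simp
  refine ⟨u, Y u, hu0, hμ, ?_, ?_, ?_, ?_⟩
  · rw [hρx, hXu, add_zero]
  · rw [hρy]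
  · rw [hρx, hLu]
  · rw [hρy, hYY, add_zero]

end Cfsg.Agent.Lib.Helper5.Dk
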