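import Mathlib

set_option autoImplicit false

namespace Cfsg.Agent.Lib.Helper5

open MulAction
open scoped Pointwise

/-- Elementwise form of primitivity of a pointwise stabiliser on the complement. -/
theorem trivial_of_block_compl {G X : Type*} [Group G] [MulAction G X] (s : Set X)
    (hprim : IsPreprimitive (fixingSubgroup G s) (SubMulAction.ofFixingSubgroup G s)) (B : Set X)
    (hBs : ∀ y ∈ B, y ∉ s)
    (hB : ∀ g : G, (∀ x ∈ s, g • x = x) → (∃ y ∈ B, g • y ∈ B) → ∀ y ∈ B, g • y ∈ B) :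
    B.Subsingleton ∨ B = sᶜ := by
  let B' : Set (SubMulAction.ofFixingSubgroup G s) := Subtype.val ⁻¹' B
  have hblock : IsBlock (fixingSubgroup G s) B' := by
    rw [isBlock_iff_smul_eq_of_nonempty]
    rintro g ⟨y, hy1, hy2⟩
    obtain ⟨w, hw, rfl⟩ := hy1
    have hg : ∀ x ∈ s, g.1 • x = x := (mem_fixingSubgroup_iff G).mp g.2
    have hg' : ∀ x ∈ s, g.1⁻¹ • x = x := fun x hx => by rw [inv_smul_eq_iff, hg x hx]
    have h1 := hB g.1 hg ⟨w.1, hw, hy2⟩
    have h2 := hB g.1⁻¹ hg' ⟨g.1 • w.1, hy2, by rw [inv_smul_smul]; exact hw⟩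
    apply Set.Subset.antisymm
    · rintro _ ⟨v, hv, rfl⟩
      exact h1 v.1 hv
    · intro v hv
      refine ⟨g⁻¹ • v, h2 v.1 hv, smul_inv_smul g v⟩
  rcases hprim.isTrivialBlock_of_isBlock hblock with h | h
  · left
    intro a ha b hb
    have ha' : (⟨a, hBs a ha⟩ : SubMulAction.ofFixingSubgroup G s) ∈ B' := ha
    have hb' : (⟨b, hBs b hb⟩ : SubMulAction.ofFixingSubgroup G s) ∈ B' := hb
    have := h ha' hb'
    exact congrArg Subtype.val this
  · right
    apply Set.Subset.antisymm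
    · exact fun y hy => hBs y hy
    · intro y hy
      have : (⟨y, hy⟩ : SubMulAction.ofFixingSubgroup G s) ∈ B' := by rw [h]; trivial
      exact this

variable {G X : Type*} [Group G] [MulAction G X]

theorem reg_inj {N : Subgroup G} (hreg : ∀ x : X, stabilizer N x = ⊥) {n n' : G} (hn : n ∈ N)
    (hn' : n' ∈ N) {x : X} (h : n • x = n' • x) : n = n' := by
  have h1 : (⟨n'⁻¹ * n, N.mul_mem (N.inv_mem hn') hn⟩ : N) ∈ stabilizer N x := by
    rw [mem_stabilizer_iff]
    show (n'⁻¹ * n) • x = x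
    rw [mul_smul, h, inv_smul_smul]
  rw [hreg x, Subgroup.mem_bot] at h1
  have h2 : n'⁻¹ * n = 1 := congrArg Subtype.val h1
  exact (inv_mul_eq_one.mp h2).symm

theorem smul_smul_conj (g n : G) {x : X} (hg : g • x = x) : g • n • x = (g * n * g⁻¹) • x := by
  rw [mul_smul, mul_smul]
  congr 2
  rw [eq_inv_smul_iff, hg]

theorem reg_card {N : Subgroup G} (htrans : IsPretransitive N X) (hreg : ∀ x : X, stabilizer N x = ⊥)
    (x : X) : Nat.card N = Nat.card X := by
  apply Nat.card_congr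
  refine Equiv.ofBijective (fun n : N => n.1 • x) ⟨?_, ?_⟩
  · intro n n' h
    exact Subtype.ext (reg_inj hreg n.2 n'.2 h)
  · intro y
    obtain ⟨n, hn⟩ := htrans.exists_smul_eq x y
    exact ⟨n, hn⟩

theorem comm_of_sq {N : Subgroup G} (h : ∀ n ∈ N, n ^ 2 = 1) : IsMulCommutative N := by
  refine ⟨⟨fun a b => Subtype.ext ?_⟩⟩
  show a.1 * b.1 = b.1 * a.1
  have h1 := h _ (N.mul_mem a.2 b.2)
  have h2 := h _ a.2
  have h3 := h _ b.2
  rw [pow_two] at h1 h2 h3
  calc a.1 * b.1 = b.1 * b.1 * (a.1 * b.1) * (a.1 * a.1) := by rw [h2, h3, one_mul, mul_one]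
    _ = b.1 * ((b.1 * a.1) * (b.1 * a.1)) * a.1 := by group
    _ = b.1 * a.1 := by
      have h4 : (b.1 * a.1) * (b.1 * a.1) = 1 := by
        have := h _ (N.mul_mem b.2 a.2)
        rwa [pow_two] at this
      rw [h4, mul_one]

end Cfsg.Agent.Lib.Helper5
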