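import Mathlib

set_option autoImplicit false

namespace Cfsg.Agent.Lib.Helper5

open Matrix

variable {p : ℕ} [Fact p.Prime]

theorem gl_mulVec_ne_zero (g : GL (Fin 2) (ZMod p)) {w : Fin 2 → ZMod p} (hw : w ≠ 0) :
    (g : Matrix (Fin 2) (Fin 2) (ZMod p)) *ᵥ w ≠ 0 := by
  intro h
  apply hw
  have : ((g⁻¹ * g : GL (Fin 2) (ZMod p)) : Matrix (Fin 2) (Fin 2) (ZMod p)) *ᵥ w = 0 := by
    rw [Units.val_mul, ← Matrix.mulVec_mulVec, h, Matrix.mulVec_zero]
  simpa using this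

theorem regular_of_equivariant (S : Set (GL (Fin 2) (ZMod p)))
    (f : (Fin 2 → ZMod p) → (Fin 2 → ZMod p))
    (h1 : f ![1, 0] = ![0, 1])
    (hcl : ∀ g ∈ S, ∀ w : Fin 2 → ZMod p, w ≠ 0 →
      f ((g : Matrix (Fin 2) (Fin 2) (ZMod p)) *ᵥ w) = (g : Matrix (Fin 2) (Fin 2) (ZMod p)) *ᵥ f w)
    (hreach : ∀ w : Fin 2 → ZMod p, w ≠ 0 →
      ∃ h ∈ Subgroup.closure S, (h : Matrix (Fin 2) (Fin 2) (ZMod p)) *ᵥ ![1, 0] = w) :
    Nat.card (Subgroup.closure S) = p ^ 2 - 1 ∧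
    ∀ v w : Fin 2 → ZMod p, v ≠ 0 → w ≠ 0 → ∃! h : Subgroup.closure S,
      Matrix.mulVec ((h : GL (Fin 2) (ZMod p)) : Matrix (Fin 2) (Fin 2) (ZMod p)) v = w := by
  classical
  have hP : ∀ h ∈ Subgroup.closure S, ∀ w : Fin 2 → ZMod p, w ≠ 0 →
      f ((h : Matrix (Fin 2) (Fin 2) (ZMod p)) *ᵥ w) =
        (h : Matrix (Fin 2) (Fin 2) (ZMod p)) *ᵥ f w := by
    intro h hh
    induction hh using Subgroup.closure_induction with
    | mem x hx => exact hcl x hx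
    | one => intro w _; simp
    | mul x y _ _ hx hy =>
      intro w hw
      rw [Units.val_mul, ← Matrix.mulVec_mulVec, hx _ (gl_mulVec_ne_zero y hw), hy w hw,
        Matrix.mulVec_mulVec]
    | inv x _ hx =>
      intro w hw
      have h2 := hx _ (gl_mulVec_ne_zero x⁻¹ hw)
      rw [Matrix.mulVec_mulVec, ← Units.val_mul, mul_inv_cancel, Units.val_one,
        Matrix.one_mulVec] at h2
      rw [h2, Matrix.mulVec_mulVec, ← Units.val_mul, inv_mul_cancel, Units.val_one,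
        Matrix.one_mulVec]
  have he1 : (![1, 0] : Fin 2 → ZMod p) ≠ 0 := by
    intro h
    have := congrFun h 0
    simp at this
  have hinj : ∀ h ∈ Subgroup.closure S, ∀ h' ∈ Subgroup.closure S,
      (h : Matrix (Fin 2) (Fin 2) (ZMod p)) *ᵥ ![1, 0] =
        (h' : Matrix (Fin 2) (Fin 2) (ZMod p)) *ᵥ ![1, 0] → h = h' := by
    intro h hh h' hh' heq
    have h2 : (h : Matrix (Fin 2) (Fin 2) (ZMod p)) *ᵥ ![0, 1] =
        (h' : Matrix (Fin 2) (Fin 2) (ZMod p)) *ᵥ ![0, 1] := by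
      rw [← h1, ← hP h hh _ he1, ← hP h' hh' _ he1, heq]
    apply Units.ext
    ext i j
    fin_cases j
    · have := congrFun heq i
      simpa [Matrix.mulVec, dotProduct, Fin.sum_univ_two] using this
    · have := congrFun h2 i
      simpa [Matrix.mulVec, dotProduct, Fin.sum_univ_two] using this
  constructor
  · have e : Subgroup.closure S ≃ {w : Fin 2 → ZMod p // w ≠ 0} :=
      Equiv.ofBijective
        (fun h => ⟨((h : GL (Fin 2) (ZMod p)) : Matrix (Fin 2) (Fin 2) (ZMod p)) *ᵥ ![1, 0],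
          gl_mulVec_ne_zero _ he1⟩)
        ⟨fun h h' heq => Subtype.ext (hinj _ h.2 _ h'.2 (congrArg Subtype.val heq)),
         fun w => by
          obtain ⟨h, hh, hw⟩ := hreach w.1 w.2
          exact ⟨⟨h, hh⟩, Subtype.ext hw⟩⟩
    rw [Nat.card_congr e, Nat.card_eq_fintype_card, Fintype.card_subtype_compl,
      Fintype.card_subtype_eq]
    simp [ZMod.card]
  · intro v w hv hw
    obtain ⟨k, hk, hkv⟩ := hreach v hv
    obtain ⟨l, hl, hlw⟩ := hreach w hw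
    refine ⟨⟨l * k⁻¹, mul_mem hl (inv_mem hk)⟩, ?_, ?_⟩
    · show ((l * k⁻¹ : GL (Fin 2) (ZMod p)) : Matrix (Fin 2) (Fin 2) (ZMod p)) *ᵥ v = w
      rw [← hkv, Matrix.mulVec_mulVec, ← Units.val_mul, inv_mul_cancel_right, hlw]
    · rintro ⟨h, hh⟩ hhv
      apply Subtype.ext
      show h = l * k⁻¹
      have hhv' : (h : Matrix (Fin 2) (Fin 2) (ZMod p)) *ᵥ v = w := hhv
      have : h * k = l := by
        apply hinj _ (mul_mem hh hk) _ hl
        rw [Units.val_mul, ← Matrix.mulVec_mulVec, hkv, hhv', hlw]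
      rw [← this, mul_inv_cancel_right]

theorem mulVec_vec2 (M : Matrix (Fin 2) (Fin 2) (ZMod p)) (w : Fin 2 → ZMod p) :
    M *ᵥ w = ![M 0 0 * w 0 + M 0 1 * w 1, M 1 0 * w 0 + M 1 1 * w 1] := by
  ext i
  fin_cases i <;> simp [Matrix.mulVec, dotProduct, Fin.sum_univ_two]

/-- scalar form, with a reachability certificate -/
theorem regular_of_table (S : Set (GL (Fin 2) (ZMod p)))
    (f0 f1 pa pb : ZMod p → ZMod p → ZMod p) (dep : ZMod p → ZMod p → ℕ)
    (h1 : f0 1 0 = 0 ∧ f1 1 0 = 1)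
    (hcl : ∀ g ∈ S, ∀ a b : ZMod p, (a ≠ 0 ∨ b ≠ 0) →
      f0 ((g : Matrix (Fin 2) (Fin 2) (ZMod p)) 0 0 * a + (g : Matrix (Fin 2) (Fin 2) (ZMod p)) 0 1 * b)
         ((g : Matrix (Fin 2) (Fin 2) (ZMod p)) 1 0 * a + (g : Matrix (Fin 2) (Fin 2) (ZMod p)) 1 1 * b) =
        (g : Matrix (Fin 2) (Fin 2) (ZMod p)) 0 0 * f0 a b + (g : Matrix (Fin 2) (Fin 2) (ZMod p)) 0 1 * f1 a b ∧
      f1 ((g : Matrix (Fin 2) (Fin 2) (ZMod p)) 0 0 * a + (g : Matrix (Fin 2) (Fin 2) (ZMod p)) 0 1 * b)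
         ((g : Matrix (Fin 2) (Fin 2) (ZMod p)) 1 0 * a + (g : Matrix (Fin 2) (Fin 2) (ZMod p)) 1 1 * b) =
        (g : Matrix (Fin 2) (Fin 2) (ZMod p)) 1 0 * f0 a b + (g : Matrix (Fin 2) (Fin 2) (ZMod p)) 1 1 * f1 a b)
    (hr : ∀ a b : ZMod p, (a ≠ 0 ∨ b ≠ 0) → (a = 1 ∧ b = 0) ∨
      (dep (pa a b) (pb a b) < dep a b ∧ ∃ g ∈ S,
        (g : Matrix (Fin 2) (Fin 2) (ZMod p)) 0 0 * pa a b + (g : Matrix (Fin 2) (Fin 2) (ZMod p)) 0 1 * pb a b = a ∧
        (g : Matrix (Fin 2) (Fin 2) (ZMod p)) 1 0 * pa a b + (g : Matrix (Fin 2) (Fin 2) (ZMod p)) 1 1 * pb a b = b)) :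
    Nat.card (Subgroup.closure S) = p ^ 2 - 1 ∧
    ∀ v w : Fin 2 → ZMod p, v ≠ 0 → w ≠ 0 → ∃! h : Subgroup.closure S,
      Matrix.mulVec ((h : GL (Fin 2) (ZMod p)) : Matrix (Fin 2) (Fin 2) (ZMod p)) v = w := by
  have hnz : ∀ w : Fin 2 → ZMod p, w ≠ 0 → (w 0 ≠ 0 ∨ w 1 ≠ 0) := by
    intro w hw
    by_contra hcon
    push Not at hcon
    apply hw
    ext i
    fin_cases i
    · exact hcon.1
    · exact hcon.2
  apply regular_of_equivariant S (fun w => ![f0 (w 0) (w 1), f1 (w 0) (w 1)])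
  · simp [h1.1, h1.2]
  · intro g hg w hw
    obtain ⟨e0, e1⟩ := hcl g hg (w 0) (w 1) (hnz w hw)
    rw [mulVec_vec2, mulVec_vec2]
    simp only [Matrix.cons_val_zero, Matrix.cons_val_one]
    rw [e0, e1]
  · have key : ∀ n : ℕ, ∀ w : Fin 2 → ZMod p, w ≠ 0 → dep (w 0) (w 1) = n →
        ∃ h ∈ Subgroup.closure S, (h : Matrix (Fin 2) (Fin 2) (ZMod p)) *ᵥ ![1, 0] = w := by
      intro n
      induction n using Nat.strong_induction_on with
      | _ n ih =>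
        intro w hw hn
        rcases hr (w 0) (w 1) (hnz w hw) with ⟨ha, hb⟩ | ⟨hd, g, hg, e0, e1⟩
        · refine ⟨1, one_mem _, ?_⟩
          rw [Units.val_one, Matrix.one_mulVec]
          ext i
          fin_cases i
          · exact ha.symm
          · exact hb.symm
        · set w' : Fin 2 → ZMod p := ![pa (w 0) (w 1), pb (w 0) (w 1)] with hw'
          have hgw : (g : Matrix (Fin 2) (Fin 2) (ZMod p)) *ᵥ w' = w := by
            rw [mulVec_vec2]
            ext i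
            fin_cases i
            · exact e0
            · exact e1
          have hw'0 : w' ≠ 0 := by
            intro h0
            rw [h0, Matrix.mulVec_zero] at hgw
            exact hw hgw.symm
          obtain ⟨h, hh, hhw⟩ := ih (dep (w' 0) (w' 1)) (by rw [← hn]; exact hd) w' hw'0 rfl
          refine ⟨g * h, mul_mem (Subgroup.subset_closure hg) hh, ?_⟩
          rw [Units.val_mul, ← Matrix.mulVec_mulVec, hhw, hgw]
    intro w hw
    exact key _ w hw rfl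

end Cfsg.Agent.Lib.Helper5
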