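import Mathlib
import Cfsg.Agent.Lib.Helper5.T24

set_option autoImplicit false
open MulAction Pointwise

namespace Cfsg.Agent.H5W3
open Cfsg.Agent.H5B2T Cfsg.Agent.H5T24

variable {G Ω : Type*} [Group G] [MulAction G Ω]

/-- the two-point stabiliser is transitive on the remaining points -/
def T3 (G Ω : Type*) [Group G] [MulAction G Ω] : Prop :=
  ∀ a b : Ω, a ≠ b → ∀ c d : Ω, c ≠ a → c ≠ b → d ≠ a → d ≠ b →
    ∃ g : G, g • a = a ∧ g • b = b ∧ g • c = d

lemma t3' (h2 : TT G Ω) (h3 : T3 G Ω) (a b c a' b' c' : Ω) (hab : a ≠ b) (hac : a ≠ c) (hbc : b ≠ c)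
    (hab' : a' ≠ b') (hac' : a' ≠ c') (hbc' : b' ≠ c') :
    ∃ g : G, g • a = a' ∧ g • b = b' ∧ g • c = c' := by
  obtain ⟨g1, h11, h12⟩ := h2 a b a' b' hab hab'
  have e1 : g1 • c ≠ a' := by rw [← h11]; intro h; exact hac (smul_left_cancel g1 h).symm
  have e2 : g1 • c ≠ b' := by rw [← h12]; intro h; exact hbc (smul_left_cancel g1 h).symm
  obtain ⟨g2, h21, h22, h23⟩ := h3 a' b' hab' (g1 • c) c' e1 e2 (Ne.symm hac') (Ne.symm hbc')
  exact ⟨g2 * g1, by rw [mul_smul, h11, h21], by rw [mul_smul, h12, h22], by rw [mul_smul, h23]⟩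

lemma exists_K' [Finite G] (T M : Subgroup G) (hTM : T ≤ M) (hTp : IsPGroup 2 T)
    (h2 : 2 ∣ T.relIndex M) :
    ∃ K : Subgroup G, T ≤ K ∧ K ≤ M ∧ T.relIndex K = 2 ∧ IsPGroup 2 K := by
  have : Fact (Nat.Prime 2) := ⟨Nat.prime_two⟩
  obtain ⟨K, h1, h3, h4⟩ := exists_K T M hTM hTp h2
  refine ⟨K, h1, h3, h4, ?_⟩
  obtain ⟨v, hv⟩ := IsPGroup.iff_card.1 hTp
  have := card_rel T K h1
  rw [h4, hv, ← pow_succ] at this
  exact IsPGroup.of_card this.symm

lemma card_stab2 (N : Subgroup G) [hn : N.Normal] (g : G) (a b : Ω) :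
    Nat.card (N ⊓ stabilizer G (g • a) ⊓ stabilizer G (g • b) : Subgroup G) =
      Nat.card (N ⊓ stabilizer G a ⊓ stabilizer G b : Subgroup G) := by
  have : (N ⊓ stabilizer G (g • a) ⊓ stabilizer G (g • b) : Subgroup G) =
      MulAut.conj g • (N ⊓ stabilizer G a ⊓ stabilizer G b : Subgroup G) := by
    ext x
    rw [mem_cj]
    simp only [Subgroup.mem_inf, mem_stabilizer_iff, mul_smul]
    constructor
    · rintro ⟨⟨h1, h2⟩, h3⟩
      refine ⟨⟨conj_mem' h1 g, ?_⟩, ?_⟩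
      · rw [h2, inv_smul_smul]
      · rw [h3, inv_smul_smul]
    · rintro ⟨⟨h1, h2⟩, h3⟩
      refine ⟨⟨?_, ?_⟩, ?_⟩
      · have := hn.conj_mem _ h1 g
        simpa [mul_assoc] using this
      · rw [inv_smul_eq_iff] at h2; exact h2
      · rw [inv_smul_eq_iff] at h3; exact h3
  rw [this]
  exact (Nat.card_congr (Subgroup.equivSMul (MulAut.conj g) _).toEquiv).symm

lemma mem_stab_pair {a b : Ω} (hab : a ≠ b) (x : G) :
    x ∈ stabilizer G ({a, b} : Set Ω) ↔ (x • a = a ∧ x • b = b) ∨ (x • a = b ∧ x • b = a) := by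
  rw [mem_stabilizer_iff]
  constructor
  · intro h
    have h1 : x • a ∈ ({a, b} : Set Ω) := by
      rw [← h]; exact Set.smul_mem_smul_set (by simp)
    have h2 : x • b ∈ ({a, b} : Set Ω) := by
      rw [← h]; exact Set.smul_mem_smul_set (by simp)
    have hne : x • a ≠ x • b := fun h => hab (smul_left_cancel x h)
    simp only [Set.mem_insert_iff, Set.mem_singleton_iff] at h1 h2
    rcases h1 with h1 | h1 <;> rcases h2 with h2 | h2
    · exact absurd (h1.trans h2.symm) hne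
    · left; exact ⟨h1, h2⟩
    · right; exact ⟨h1, h2⟩
    · exact absurd (h1.trans h2.symm) hne
  · intro h
    ext y
    rw [Set.mem_smul_set_iff_inv_smul_mem]
    simp only [Set.mem_insert_iff, Set.mem_singleton_iff, inv_smul_eq_iff]
    rcases h with ⟨h1, h2⟩ | ⟨h1, h2⟩
    · rw [h1, h2]
    · rw [h1, h2]; exact or_comm

lemma orb_eq2 (h3 : T3 G Ω) (N : Subgroup G) [hn : N.Normal] (a b : Ω) (hab : a ≠ b) (c e : Ω)
    (hca : c ≠ a) (hcb : c ≠ b) (hea : e ≠ a) (heb : e ≠ b) :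
    (orbit (N ⊓ stabilizer G a ⊓ stabilizer G b : Subgroup G) c).ncard =
      (orbit (N ⊓ stabilizer G a ⊓ stabilizer G b : Subgroup G) e).ncard := by
  obtain ⟨g, hg1, hg2, hg3⟩ := h3 a b hab c e hca hcb hea heb
  have hg1' : g⁻¹ • a = a := by rw [inv_smul_eq_iff, hg1]
  have hg2' : g⁻¹ • b = b := by rw [inv_smul_eq_iff, hg2]
  have : orbit (N ⊓ stabilizer G a ⊓ stabilizer G b : Subgroup G) e =
      g • orbit (N ⊓ stabilizer G a ⊓ stabilizer G b : Subgroup G) c := by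
    ext y
    constructor
    · rintro ⟨⟨x, hx⟩, rfl⟩
      obtain ⟨hx12, hx3⟩ := Subgroup.mem_inf.1 hx
      obtain ⟨hx1, hx2⟩ := Subgroup.mem_inf.1 hx12
      rw [mem_stabilizer_iff] at hx2 hx3
      refine ⟨(g⁻¹ * x * g) • c, ⟨⟨g⁻¹ * x * g,
        Subgroup.mem_inf.2 ⟨Subgroup.mem_inf.2 ⟨conj_mem' hx1 g, ?_⟩, ?_⟩⟩, rfl⟩, ?_⟩
      · rw [mem_stabilizer_iff, mul_smul, mul_smul, hg1, hx2, hg1']
      · rw [mem_stabilizer_iff, mul_smul, mul_smul, hg2, hx3, hg2']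
      · show g • (g⁻¹ * x * g) • c = x • e
        rw [mul_smul, mul_smul, hg3, smul_inv_smul]
    · rintro ⟨_, ⟨⟨x, hx⟩, rfl⟩, rfl⟩
      obtain ⟨hx12, hx3⟩ := Subgroup.mem_inf.1 hx
      obtain ⟨hx1, hx2⟩ := Subgroup.mem_inf.1 hx12
      rw [mem_stabilizer_iff] at hx2 hx3
      refine ⟨⟨g * x * g⁻¹,
        Subgroup.mem_inf.2 ⟨Subgroup.mem_inf.2 ⟨hn.conj_mem x hx1 g, ?_⟩, ?_⟩⟩, ?_⟩
      · rw [mem_stabilizer_iff, mul_smul, mul_smul, hg1', hx2, hg1]
      · rw [mem_stabilizer_iff, mul_smul, mul_smul, hg2', hx3, hg2]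
      · show (g * x * g⁻¹) • e = g • x • c
        rw [mul_smul, mul_smul, ← hg3, inv_smul_smul]
  rw [this, Set.ncard_smul_set]

/-- a nontrivial normal subgroup of a 3-transitive group of odd degree ≥ 5 is 2-transitive -/
theorem n_two_trans [Finite G] [Finite Ω] [FaithfulSMul G Ω] (h2 : TT G Ω) (h3 : T3 G Ω)
    (hodd : Odd (Nat.card Ω)) (h5 : 5 ≤ Nat.card Ω) (N : Subgroup G) [hn : N.Normal] (hN : N ≠ ⊥) :
    ∀ a b c d : Ω, a ≠ b → c ≠ d → ∃ m ∈ N, m • a = c ∧ m • b = d := by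
  have htr := ntrans h2 N hN
  have hnr : ∃ a0 : Ω, ∃ x ∈ N, x ≠ 1 ∧ x • a0 = a0 := by
    by_contra hcon
    push Not at hcon
    have hreg : ∀ x ∈ N, ∀ a : Ω, x • a = a → x = 1 := by
      intro x hx a hxa
      by_contra h1
      exact hcon a x hx h1 hxa
    have hsq : ∀ x ∈ N, x * x = 1 := by
      intro x hx
      by_cases hx1 : x = 1
      · rw [hx1, one_mul]
      obtain ⟨a, ha⟩ := ex_move (Ω := Ω) hx1
      by_contra hxx
      have hb' : x⁻¹ • a ≠ x • a := by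
        intro h
        apply hxx
        apply hreg _ (N.mul_mem hx hx) a
        rw [mul_smul, ← h, smul_inv_smul]
      have hb'a : x⁻¹ • a ≠ a := by
        intro h
        apply ha
        rw [inv_smul_eq_iff] at h
        exact h.symm
      -- a further point
      obtain ⟨e, he⟩ : ∃ e : Ω, e ∉ ({a, x • a, x⁻¹ • a} : Set Ω) := by
        by_contra hall
        push Not at hall
        have : (Set.univ : Set Ω) ⊆ {a, x • a, x⁻¹ • a} := fun y _ => hall y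
        have h1 := Set.ncard_le_ncard this (Set.toFinite _)
        rw [Set.ncard_univ] at h1
        have h4 : ({a, x • a, x⁻¹ • a} : Set Ω).ncard ≤ 3 := by
          refine (Set.ncard_insert_le _ _).trans ?_
          have h6 := Set.ncard_insert_le (x • a) ({x⁻¹ • a} : Set Ω)
          rw [Set.ncard_singleton] at h6
          omega
        omega
      simp only [Set.mem_insert_iff, Set.mem_singleton_iff, not_or] at he
      obtain ⟨he1, he2, he3⟩ := he
      obtain ⟨g, hg1, hg2, hg3⟩ := h3 a (x • a) (Ne.symm ha) (x⁻¹ • a) e hb'a hb' he1 he2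
      have hg1' : g⁻¹ • a = a := by rw [inv_smul_eq_iff, hg1]
      have hgx : x⁻¹ * (g * x * g⁻¹) = 1 := by
        apply hreg _ (N.mul_mem (N.inv_mem hx) (hn.conj_mem x hx g)) a
        rw [mul_smul, mul_smul, mul_smul, hg1', hg2, inv_smul_smul]
      have hgx' : g * x * g⁻¹ = x := (inv_mul_eq_one.1 hgx).symm
      have hgx2 : g * x⁻¹ = x⁻¹ * g := by
        have : g * x = x * g := by
          calc g * x = (g * x * g⁻¹) * g := by group
            _ = x * g := by rw [hgx']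
        calc g * x⁻¹ = x⁻¹ * (x * g) * x⁻¹ := by group
          _ = x⁻¹ * (g * x) * x⁻¹ := by rw [this]
          _ = x⁻¹ * g := by group
      apply he3
      rw [← hg3, ← mul_smul, hgx2, mul_smul, hg1]
    obtain ⟨x, hx, hx1⟩ : ∃ x : G, x ∈ N ∧ x ≠ 1 := by
      obtain ⟨x, h⟩ := Subgroup.ne_bot_iff_exists_ne_one.1 hN
      exact ⟨(x : G), x.2, fun e => h (Subtype.ext e)⟩
    obtain ⟨a, _⟩ := ex_move (Ω := Ω) hx1
    have hc := card_regular N htr hreg a
    have ho : orderOf (⟨x, hx⟩ : N) = 2 := by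
      apply orderOf_eq_prime
      · rw [pow_two]; exact Subtype.ext (hsq x hx)
      · intro h; exact hx1 (congrArg Subtype.val h)
    have hd : 2 ∣ Nat.card N := ho ▸ orderOf_dvd_natCard _
    rw [hc] at hd
    rw [Nat.odd_iff] at hodd
    omega
  obtain ⟨a0, x0, hx0, hx01, hx0a⟩ := hnr
  obtain ⟨c0, hc0⟩ := ex_move (Ω := Ω) hx01
  have hc0a : c0 ≠ a0 := fun h => hc0 (h ▸ hx0a)
  have hc0a' : x0 • c0 ≠ a0 := by
    intro h
    apply hc0a
    have : x0 • c0 = x0 • a0 := by rw [h, hx0a]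
    exact smul_left_cancel x0 this
  have hst : ∀ e f : Ω, e ≠ a0 → f ≠ a0 → ∃ m ∈ N, m • a0 = a0 ∧ m • e = f := by
    intro e f he hf
    by_cases hef : e = f
    · exact ⟨1, N.one_mem, one_smul _ _, by rw [one_smul, hef]⟩
    obtain ⟨g, hg1, hg2, hg3⟩ := t3' h2 h3 a0 c0 (x0 • c0) a0 e f (Ne.symm hc0a) (Ne.symm hc0a')
      (Ne.symm hc0) (Ne.symm he) (Ne.symm hf) hef
    have hg1' : g⁻¹ • a0 = a0 := by rw [inv_smul_eq_iff, hg1]
    refine ⟨g * x0 * g⁻¹, hn.conj_mem x0 hx0 g, ?_, ?_⟩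
    · rw [mul_smul, mul_smul, hg1', hx0a, hg1]
    · rw [mul_smul, mul_smul, ← hg2, inv_smul_smul, hg3]
  intro a b c d hab hcd
  obtain ⟨m1, hm1, h1⟩ := htr a a0
  obtain ⟨m2, hm2, h2'⟩ := htr c a0
  have e1 : m1 • b ≠ a0 := by rw [← h1]; intro h; exact hab (smul_left_cancel m1 h).symm
  have e2 : m2 • d ≠ a0 := by rw [← h2']; intro h; exact hcd (smul_left_cancel m2 h).symm
  obtain ⟨m3, hm3, h31, h32⟩ := hst _ _ e1 e2
  refine ⟨m2⁻¹ * m3 * m1, N.mul_mem (N.mul_mem (N.inv_mem hm2) hm3) hm1, ?_, ?_⟩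
  · rw [mul_smul, mul_smul, h1, h31, inv_smul_eq_iff, h2']
  · rw [mul_smul, mul_smul, h32, inv_smul_smul]

theorem wagner [Finite G] [Finite Ω] [FaithfulSMul G Ω] (h2 : TT G Ω) (h3 : T3 G Ω)
    (hodd : Odd (Nat.card Ω)) (h5 : 5 ≤ Nat.card Ω) (N : Subgroup G) [hn : N.Normal] (hN : N ≠ ⊥) :
    ∀ a b : Ω, a ≠ b → ∀ c d : Ω, c ≠ a → c ≠ b → d ≠ a → d ≠ b →
      ∃ m ∈ N, m • a = a ∧ m • b = b ∧ m • c = d := by
  classical
  intro a b hab
  have hF2 : Fact (Nat.Prime 2) := ⟨Nat.prime_two⟩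
  have hN2 := n_two_trans h2 h3 hodd h5 N hN
  obtain ⟨Nab, hNab⟩ : ∃ Nab : Subgroup G, Nab = N ⊓ stabilizer G a ⊓ stabilizer G b := ⟨_, rfl⟩
  have memNab : ∀ x, x ∈ Nab ↔ x ∈ N ∧ x • a = a ∧ x • b = b := by
    intro x; rw [hNab]; simp only [Subgroup.mem_inf, mem_stabilizer_iff, and_assoc]
  obtain ⟨T, hTle, hTp, hTodd⟩ := exists_syl Nab
  have hTN : T ≤ N := fun t ht => ((memNab t).1 (hTle ht)).1
  obtain ⟨r, hr⟩ : ∃ r, r = T.relIndex Nab := ⟨_, rfl⟩
  rw [← hr] at hTodd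
  obtain ⟨Φ, hΦ⟩ : ∃ Φ : Set Ω, ∀ c, c ∈ Φ ↔ ∀ t ∈ T, t • c = c :=
    ⟨{c | ∀ t ∈ T, t • c = c}, fun c => Iff.rfl⟩
  have haΦ : a ∈ Φ := (hΦ a).2 fun t ht => ((memNab t).1 (hTle ht)).2.1
  have hbΦ : b ∈ Φ := (hΦ b).2 fun t ht => ((memNab t).1 (hTle ht)).2.2
  have hrc : ∀ c ∈ Φ, ∀ e ∈ Φ, c ≠ e → ∀ K : Subgroup G, T ≤ K →
      (∀ k ∈ K, k ∈ N ∧ k • c = c ∧ k • e = e) → ¬ 2 ∣ T.relIndex K := by
    intro c hc e he hce K hTK hK hd
    obtain ⟨m, hm, hm1, hm2⟩ := hN2 a b c e hab hce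
    have hcard := card_stab2 N m a b
    rw [hm1, hm2, ← hNab] at hcard
    have hTce : T ≤ (N ⊓ stabilizer G c ⊓ stabilizer G e : Subgroup G) := by
      intro t ht
      exact Subgroup.mem_inf.2 ⟨Subgroup.mem_inf.2 ⟨hTN ht, (hΦ c).1 hc t ht⟩, (hΦ e).1 he t ht⟩
    have hKce : K ≤ (N ⊓ stabilizer G c ⊓ stabilizer G e : Subgroup G) := by
      intro k hk
      obtain ⟨h1, h2', h3'⟩ := hK k hk
      exact Subgroup.mem_inf.2 ⟨Subgroup.mem_inf.2 ⟨h1, h2'⟩, h3'⟩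
    have e1 := card_rel T _ hTce
    have e2 := card_rel T _ hTle
    rw [hcard, ← e2] at e1
    have e3 : T.relIndex (N ⊓ stabilizer G c ⊓ stabilizer G e) = r := by
      rw [hr]; exact Nat.eq_of_mul_eq_mul_left Nat.card_pos e1
    have e4 := Subgroup.relIndex_mul_relIndex T K _ hTK hKce
    rw [e3] at e4
    exact hTodd (hd.trans (Dvd.intro _ e4))
  obtain ⟨Y, hY⟩ : ∃ Y : Subgroup G, Y = Subgroup.normalizer (T : Set G) := ⟨_, rfl⟩
  have hYΦ : ∀ y ∈ Y, ∀ c ∈ Φ, y • c ∈ Φ := by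
    intro y hy c hc
    rw [hΦ] at hc ⊢
    intro t ht
    rw [hY] at hy
    have h1 : y⁻¹ * t * y ∈ T := (Subgroup.mem_normalizer_iff''.1 hy t).1 ht
    have h3 := hc _ h1
    calc t • y • c = y • (y⁻¹ * t * y) • c := by simp only [mul_smul, smul_inv_smul]
      _ = y • c := by rw [h3]
  have hYmem : ∀ y : G, (∀ t ∈ T, y * t * y⁻¹ ∈ T) → y ∈ Y := by
    intro y hy
    rw [hY, Subgroup.mem_normalizer_iff]
    intro t
    refine ⟨hy t, fun h => ?_⟩
    let φ : T → T := fun t => ⟨y * t * y⁻¹, hy t t.2⟩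
    have hinj : Function.Injective φ := by
      intro t1 t2 h12
      have := congrArg Subtype.val h12
      simp only [φ] at this
      exact Subtype.ext (by simpa using this)
    obtain ⟨t', ht'⟩ := (Finite.injective_iff_surjective.1 hinj) ⟨_, h⟩
    have := congrArg Subtype.val ht'
    simp only [φ] at this
    have : (t' : G) = t := by simpa using this
    exact this ▸ t'.2
  have hTY : T ≤ Y := by rw [hY]; exact Subgroup.le_normalizer
  have hW : ∀ (D : Subgroup G), T ≤ D → D ≤ Nab → ∀ g : G,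
      (∀ t ∈ T, g * t * g⁻¹ ∈ D) → ∃ u ∈ D, u * g ∈ Y := by
    intro D hTD hDc g hg
    have hoddD : ¬ 2 ∣ T.relIndex D :=
      hrc a haΦ b hbΦ hab D hTD (fun k hk => (memNab k).1 (hDc hk))
    obtain ⟨u, hu, huT⟩ := sylow_conj D T (MulAut.conj g • T) hTD
      (by
        intro x hx
        rw [mem_cj] at hx
        have := hg _ hx
        simpa [mul_assoc] using this) hTp
      (hTp.of_equiv (Subgroup.equivSMul (MulAut.conj g) T)) hoddD
      (Nat.card_congr (Subgroup.equivSMul (MulAut.conj g) T).toEquiv).symm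
    refine ⟨u, hu, hYmem _ ?_⟩
    intro t ht
    have := huT (g * t * g⁻¹) (by rw [mem_cj]; simpa [mul_assoc] using ht)
    have e : u * g * t * (u * g)⁻¹ = u * (g * t * g⁻¹) * u⁻¹ := by group
    rw [e]; exact this
  have hA2 : ∀ p ∈ Φ, ∀ p' ∈ Φ, p ≠ a → p ≠ b → p' ≠ a → p' ≠ b →
      ∃ y ∈ Y, y • a = a ∧ y • b = b ∧ y • p = p' := by
    intro p hp p' hp' hpa hpb hpa' hpb'
    obtain ⟨g, hg1, hg2, hg3⟩ := h3 a b hab p p' hpa hpb hpa' hpb'
    obtain ⟨u, hu, huY⟩ := hW (Nab ⊓ stabilizer G p')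
      (by
        intro t ht
        exact Subgroup.mem_inf.2 ⟨hTle ht, (hΦ p').1 hp' t ht⟩) inf_le_left g
      (by
        intro t ht
        refine Subgroup.mem_inf.2 ⟨(memNab _).2 ⟨hn.conj_mem t (hTN ht) g, ?_, ?_⟩, ?_⟩
        · nth_rewrite 1 [← hg1]
          rw [mul_smul, mul_smul, inv_smul_smul, (hΦ a).1 haΦ t ht, hg1]
        · nth_rewrite 1 [← hg2]
          rw [mul_smul, mul_smul, inv_smul_smul, (hΦ b).1 hbΦ t ht, hg2]
        · rw [mem_stabilizer_iff, mul_smul, mul_smul, ← hg3, inv_smul_smul, (hΦ p).1 hp t ht])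
    obtain ⟨hu1, hu2⟩ := Subgroup.mem_inf.1 hu
    obtain ⟨_, hu3, hu4⟩ := (memNab u).1 hu1
    refine ⟨u * g, huY, ?_, ?_, ?_⟩
    · rw [mul_smul, hg1]; exact hu3
    · rw [mul_smul, hg2]; exact hu4
    · rw [mul_smul, hg3]; exact hu2
  obtain ⟨u0, hu0N, hu0Y, hu0a, hu0b⟩ : ∃ u0 ∈ N, u0 ∈ Y ∧ u0 • a = b ∧ u0 • b = a := by
    obtain ⟨g, hgN, hg1, hg2⟩ := hN2 a b b a hab (Ne.symm hab)
    have hg1' : g⁻¹ • b = a := by rw [inv_smul_eq_iff, hg1]
    have hg2' : g⁻¹ • a = b := by rw [inv_smul_eq_iff, hg2]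
    obtain ⟨u, hu, huY⟩ := hW Nab hTle le_rfl g
      (by
        intro t ht
        refine (memNab _).2 ⟨hn.conj_mem t (hTN ht) g, ?_, ?_⟩
        · rw [mul_smul, mul_smul, hg2', (hΦ b).1 hbΦ t ht, hg2]
        · rw [mul_smul, mul_smul, hg1', (hΦ a).1 haΦ t ht, hg1])
    obtain ⟨hu1, hu3, hu4⟩ := (memNab u).1 hu
    exact ⟨u * g, N.mul_mem hu1 hgN, huY, by rw [mul_smul, hg1, hu4], by rw [mul_smul, hg2, hu3]⟩
  have hΦodd : Φ.ncard % 2 = 1 := by
    have h1 := hTp.card_modEq_card_fixedPoints Ω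
    have : (fixedPoints T Ω) = Φ := by
      ext c
      rw [hΦ]
      constructor
      · intro h t ht; exact h ⟨t, ht⟩
      · intro h t; exact h t t.2
    rw [this, Nat.card_coe_set_eq] at h1
    unfold Nat.ModEq at h1
    rw [Nat.odd_iff] at hodd
    omega
  obtain ⟨W, hWdef⟩ : ∃ W : Subgroup G, W = N ⊓ Y ⊓ stabilizer G ({a, b} : Set Ω) := ⟨_, rfl⟩
  have memW : ∀ x, x ∈ W ↔ x ∈ N ∧ x ∈ Y ∧
      ((x • a = a ∧ x • b = b) ∨ (x • a = b ∧ x • b = a)) := by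
    intro x; rw [hWdef]; simp only [Subgroup.mem_inf, mem_stab_pair hab, and_assoc]
  have hTW : T ≤ W := fun t ht =>
    (memW t).2 ⟨hTN ht, hTY ht, Or.inl ⟨(hΦ a).1 haΦ t ht, (hΦ b).1 hbΦ t ht⟩⟩
  have hu0W : u0 ∈ W := (memW u0).2 ⟨hu0N, hu0Y, Or.inr ⟨hu0a, hu0b⟩⟩
  have horbW : orbit W a = {a, b} := by
    ext y
    constructor
    · rintro ⟨⟨x, hx⟩, rfl⟩
      rcases ((memW x).1 hx).2.2 with h | h
      · left; exact h.1
      · right; exact h.1
    · rintro (h | h)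
      · rw [h]; exact mem_orbit_self a
      · rw [Set.mem_singleton_iff] at h
        rw [h]
        exact ⟨⟨u0, hu0W⟩, hu0a⟩
  have hRW : (W ⊓ stabilizer G a).relIndex W = 2 := by
    rw [← orbit_ncard, horbW, Set.ncard_pair hab]
  have hTR : T ≤ W ⊓ stabilizer G a := le_inf hTW (fun t ht => (hΦ a).1 haΦ t ht)
  have hRodd : ¬ 2 ∣ T.relIndex (W ⊓ stabilizer G a) := by
    apply hrc a haΦ b hbΦ hab _ hTR
    intro k hk
    obtain ⟨hk1, hk2⟩ := Subgroup.mem_inf.1 hk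
    rw [mem_stabilizer_iff] at hk2
    obtain ⟨h1, _, h4⟩ := (memW k).1 hk1
    rcases h4 with h | h
    · exact ⟨h1, h.1, h.2⟩
    · exact absurd (hk2.symm.trans h.1) hab
  have hTWrel := Subgroup.relIndex_mul_relIndex T _ W hTR inf_le_left
  rw [hRW] at hTWrel
  obtain ⟨S1, hTS1, hS1W, hS12, hS1p⟩ := exists_K' T W hTW hTp (Dvd.intro_left _ hTWrel)
  have hS1odd : ¬ 2 ∣ S1.relIndex W := by
    have h := Subgroup.relIndex_mul_relIndex T S1 W hTS1 hS1W
    rw [hS12, ← hTWrel] at h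
    have : S1.relIndex W = T.relIndex (W ⊓ stabilizer G a) := by omega
    rw [this]; exact hRodd
  obtain ⟨s, hsS1, hsT, hsn, hss, hsK⟩ := idx2 T S1 hTS1 hS12
  have hS1fix2 : ∀ c ∈ Φ, ∀ e ∈ Φ, c ≠ e → ¬ (∀ k ∈ S1, k • c = c ∧ k • e = e) := by
    intro c hc e he hce hall
    apply hrc c hc e he hce S1 hTS1 (fun k hk => ⟨((memW k).1 (hS1W hk)).1, hall k hk⟩)
    rw [hS12]
  have hsswap : s • a = b ∧ s • b = a := by
    rcases ((memW s).1 (hS1W hsS1)).2.2 with h | h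
    · exfalso
      apply hS1fix2 a haΦ b hbΦ hab
      intro k hk
      rcases hsK k hk with h' | h'
      · exact ⟨(hΦ a).1 haΦ k h', (hΦ b).1 hbΦ k h'⟩
      · have e1 := (hΦ a).1 haΦ _ h'
        have e2 := (hΦ b).1 hbΦ _ h'
        rw [mul_smul] at e1 e2
        exact ⟨smul_left_cancel s (e1.trans h.1.symm), smul_left_cancel s (e2.trans h.2.symm)⟩
    · exact h
  have hΦ'inv : ∀ k ∈ Y, ((k • a = a ∧ k • b = b) ∨ (k • a = b ∧ k • b = a)) →
      ∀ c ∈ Φ \ {a, b}, k • c ∈ Φ \ {a, b} := by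
    intro k hkY h4 c hc
    obtain ⟨hc1, hc2⟩ := hc
    simp only [Set.mem_insert_iff, Set.mem_singleton_iff, not_or] at hc2
    refine ⟨hYΦ k hkY c hc1, ?_⟩
    simp only [Set.mem_insert_iff, Set.mem_singleton_iff, not_or]
    rcases h4 with h | h
    · constructor
      · intro h'; exact hc2.1 (smul_left_cancel k (h'.trans h.1.symm))
      · intro h'; exact hc2.2 (smul_left_cancel k (h'.trans h.2.symm))
    · constructor
      · intro h'; exact hc2.2 (smul_left_cancel k (h'.trans h.2.symm))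
      · intro h'; exact hc2.1 (smul_left_cancel k (h'.trans h.1.symm))
  have hΦ'card : (Φ \ {a, b}).ncard % 2 = 1 := by
    have hsub : ({a, b} : Set Ω) ⊆ Φ := by
      intro y hy
      rcases hy with h | h
      · rw [h]; exact haΦ
      · rw [Set.mem_singleton_iff] at h
        rw [h]; exact hbΦ
    rw [Set.ncard_diff hsub (Set.toFinite _), Set.ncard_pair hab]
    have : 2 ≤ Φ.ncard := by
      rw [← Set.ncard_pair hab]; exact Set.ncard_le_ncard hsub (Set.toFinite _)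
    omega
  let PS : SubMulAction S1 Ω :=
    { carrier := Φ \ {a, b}
      smul_mem' := fun k c hc =>
        hΦ'inv k ((memW _).1 (hS1W k.2)).2.1 ((memW _).1 (hS1W k.2)).2.2 c hc }
  have hcPS : ¬ 2 ∣ Nat.card PS := by
    have : Nat.card PS = (Φ \ {a, b}).ncard := by rw [← Nat.card_coe_set_eq]; rfl
    rw [this]; omega
  obtain ⟨p0, hp0⟩ := hS1p.nonempty_fixed_point_of_prime_not_dvd_card PS hcPS
  obtain ⟨p, hpΦ', hpfix⟩ : ∃ p ∈ Φ \ {a, b}, ∀ k ∈ S1, k • p = p :=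
    ⟨p0, p0.2, fun k hk => congrArg Subtype.val (hp0 ⟨k, hk⟩)⟩
  have hpa : p ≠ a ∧ p ≠ b := by
    have := hpΦ'.2
    simpa [not_or] using this
  have hRtr : ∀ p' ∈ Φ \ {a, b}, ∃ m ∈ N, m • a = a ∧ m • b = b ∧ m • p = p' := by
    intro p' hp'
    have hp'a : p' ≠ a ∧ p' ≠ b := by
      have := hp'.2
      simpa [not_or] using this
    obtain ⟨y, hyY, hya, hyb, hyp⟩ := hA2 p hpΦ'.1 p' hp'.1 hpa.1 hpa.2 hp'a.1 hp'a.2
    have hcjW : MulAut.conj y • S1 ≤ W := by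
      intro x hx
      rw [mem_cj] at hx
      obtain ⟨h1, h2', h4⟩ := (memW _).1 (hS1W hx)
      refine (memW x).2 ⟨?_, ?_, ?_⟩
      · have := hn.conj_mem _ h1 y
        simpa [mul_assoc] using this
      · have := Y.mul_mem (Y.mul_mem hyY h2') (Y.inv_mem hyY)
        simpa [mul_assoc] using this
      · simp only [mul_smul, hya, hyb] at h4
        rcases h4 with h | h
        · left
          constructor
          · have := h.1; rw [inv_smul_eq_iff, hya] at this; exact this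
          · have := h.2; rw [inv_smul_eq_iff, hyb] at this; exact this
        · right
          constructor
          · have := h.1; rw [inv_smul_eq_iff, hyb] at this; exact this
          · have := h.2; rw [inv_smul_eq_iff, hya] at this; exact this
    obtain ⟨u, hu, huS⟩ := sylow_conj W S1 (MulAut.conj y • S1) hS1W hcjW hS1p
      (hS1p.of_equiv (Subgroup.equivSMul (MulAut.conj y) S1)) hS1odd
      (Nat.card_congr (Subgroup.equivSMul (MulAut.conj y) S1).toEquiv).symm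
    have hz : ∀ k ∈ S1, (u * y) * k * (u * y)⁻¹ ∈ S1 := by
      intro k hk
      have := huS (y * k * y⁻¹) (by rw [mem_cj]; simpa [mul_assoc] using hk)
      have e : u * y * k * (u * y)⁻¹ = u * (y * k * y⁻¹) * u⁻¹ := by group
      rw [e]; exact this
    have hfix' : ∀ k ∈ S1, k • ((u * y)⁻¹ • p) = (u * y)⁻¹ • p := by
      intro k hk
      have := hpfix _ (hz k hk)
      rw [mul_smul, mul_smul] at this
      exact eq_inv_smul_iff.2 this
    obtain ⟨huN, huY, hu4⟩ := (memW u).1 hu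
    have hzY : (u * y)⁻¹ ∈ Y := Y.inv_mem (Y.mul_mem huY hyY)
    have hz4 : (((u * y)⁻¹ • a = a ∧ (u * y)⁻¹ • b = b) ∨ ((u * y)⁻¹ • a = b ∧ (u * y)⁻¹ • b = a)) := by
      rcases hu4 with h | h
      · left
        constructor
        · rw [inv_smul_eq_iff, mul_smul, hya, h.1]
        · rw [inv_smul_eq_iff, mul_smul, hyb, h.2]
      · right
        constructor
        · rw [inv_smul_eq_iff, mul_smul, hyb, h.2]
        · rw [inv_smul_eq_iff, mul_smul, hya, h.1]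
    have hq := hΦ'inv _ hzY hz4 p hpΦ'
    have hqp : (u * y)⁻¹ • p = p := by
      by_contra hne
      exact hS1fix2 p hpΦ'.1 _ hq.1 (Ne.symm hne) (fun k hk => ⟨hpfix k hk, hfix' k hk⟩)
    have hup : u • p' = p := by
      rw [inv_smul_eq_iff, mul_smul, hyp] at hqp
      exact hqp.symm
    have hup' : u⁻¹ • p = p' := by rw [inv_smul_eq_iff, hup]
    rcases hu4 with h | h
    · refine ⟨u⁻¹, N.inv_mem huN, ?_, ?_, hup'⟩
      · rw [inv_smul_eq_iff, h.1]
      · rw [inv_smul_eq_iff, h.2]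
    · refine ⟨u⁻¹ * s, N.mul_mem (N.inv_mem huN) ((memW s).1 (hS1W hsS1)).1, ?_, ?_, ?_⟩
      · rw [mul_smul, hsswap.1, inv_smul_eq_iff, h.1]
      · rw [mul_smul, hsswap.2, inv_smul_eq_iff, h.2]
      · rw [mul_smul, hpfix s hsS1, hup']
  have key : ∀ e : Ω, e ≠ a → e ≠ b → ∃ m ∈ N, m • a = a ∧ m • b = b ∧ m • e = p := by
    intro e hea heb
    have hoddorb : ¬ 2 ∣ (orbit Nab e).ncard := by
      have h1 : (orbit Nab p).ncard = (orbit Nab e).ncard := by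
        rw [hNab]; exact orb_eq2 h3 N a b hab p e hpa.1 hpa.2 hea heb
      rw [← h1, orbit_ncard]
      intro hd
      have hT' : T ≤ Nab ⊓ stabilizer G p := le_inf hTle (fun t ht => (hΦ p).1 hpΦ'.1 t ht)
      have e4 := Subgroup.relIndex_mul_relIndex T _ Nab hT' inf_le_left
      rw [← hr] at e4
      exact hTodd (hd.trans (Dvd.intro_left _ e4))
    let OS : SubMulAction T Ω :=
      { carrier := orbit Nab e
        smul_mem' := by
          rintro t _ ⟨m, rfl⟩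
          exact ⟨⟨(t : G), hTle t.2⟩ * m, mul_smul _ _ _⟩ }
    have hcOS : ¬ 2 ∣ Nat.card OS := by
      have : Nat.card OS = (orbit Nab e).ncard := by rw [← Nat.card_coe_set_eq]; rfl
      rw [this]; exact hoddorb
    obtain ⟨e', he'⟩ := hTp.nonempty_fixed_point_of_prime_not_dvd_card OS hcOS
    have heΦ : (e' : Ω) ∈ Φ := (hΦ _).2 fun t ht => congrArg Subtype.val (he' ⟨t, ht⟩)
    obtain ⟨⟨m, hm⟩, hme⟩ := e'.2
    have hme' : m • e = (e' : Ω) := hme
    obtain ⟨hm1, hm2, hm3⟩ := (memNab m).1 hm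
    have hne_a : (e' : Ω) ≠ a := by
      rw [← hme']; intro h; exact hea (smul_left_cancel m (h.trans hm2.symm))
    have hne_b : (e' : Ω) ≠ b := by
      rw [← hme']; intro h; exact heb (smul_left_cancel m (h.trans hm3.symm))
    obtain ⟨m', hm'N, hm'a, hm'b, hm'p⟩ := hRtr e' ⟨heΦ, by simp [hne_a, hne_b]⟩
    refine ⟨m'⁻¹ * m, N.mul_mem (N.inv_mem hm'N) hm1, ?_, ?_, ?_⟩
    · rw [mul_smul, hm2, inv_smul_eq_iff, hm'a]
    · rw [mul_smul, hm3, inv_smul_eq_iff, hm'b]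
    · rw [mul_smul, hme', inv_smul_eq_iff, hm'p]
  intro c d hca hcb hda hdb
  obtain ⟨m1, h11, h12, h13, h14⟩ := key c hca hcb
  obtain ⟨m2, h21, h22, h23, h24⟩ := key d hda hdb
  refine ⟨m2⁻¹ * m1, N.mul_mem (N.inv_mem h21) h11, ?_, ?_, ?_⟩
  · rw [mul_smul, h12, inv_smul_eq_iff, h22]
  · rw [mul_smul, h13, inv_smul_eq_iff, h23]
  · rw [mul_smul, h14, inv_smul_eq_iff, h24]

end Cfsg.Agent.H5W3
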