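import Mathlib
import Cfsg.Agent.Lib.Helper5.Witt

set_option autoImplicit false

namespace Cfsg.Agent.Lib.Helper5

variable {F V : Type*} [Field F] [AddCommGroup V] [Module F V]

/-- the group of isometries of a quadratic form -/
def isoGroupQ (Q : QuadraticForm F V) : Subgroup (V ≃ₗ[F] V) where
  carrier := {g | ∀ x, Q (g x) = Q x}
  one_mem' := fun _ => rfl
  mul_mem' := fun {a b} ha hb x => by
    show Q (a (b x)) = _
    rw [ha, hb]
  inv_mem' := fun {a} ha x => by
    have h := ha (a⁻¹ x)
    have e1 : a (a⁻¹ x) = x := a.apply_symm_apply x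
    rw [e1] at h
    exact h.symm

theorem exists_equiv_of_isomQ [FiniteDimensional F V] (Q : QuadraticForm F V)
    (hQ : (QuadraticMap.polarBilin Q).Nondegenerate) (g : V →ₗ[F] V) (hg : ∀ x, Q (g x) = Q x) :
    ∃ e ∈ isoGroupQ Q, ∀ x, e x = g x := by
  have hinj : Function.Injective g := by
    rw [← LinearMap.ker_eq_bot, LinearMap.ker_eq_bot']
    intro x hx
    apply hQ.1 x
    intro y
    rw [QuadraticMap.polarBilin_apply_apply, QuadraticMap.polar, ← hg (x + y), ← hg x, ← hg y,
      map_add, hx]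
    simp
  refine ⟨LinearEquiv.ofInjectiveEndo g hinj, fun x => ?_, fun x => ?_⟩
  · simp only [LinearEquiv.coe_ofInjectiveEndo]
    exact hg x
  · simp only [LinearEquiv.coe_ofInjectiveEndo]

theorem quad_expand1 (Q : QuadraticForm F V) (x p : V) (α : F) :
    Q (x + α • p) = Q x + α * α * Q p + α * QuadraticMap.polar Q x p := by
  rw [QuadraticMap.map_add Q, QuadraticMap.map_smul, QuadraticMap.polar_smul_right, smul_eq_mul,
    smul_eq_mul]

theorem quad_expand2 (Q : QuadraticForm F V) (x p y : V) (α β : F) :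
    Q (x + α • p + β • y) = Q x + α * α * Q p + β * β * Q y + α * QuadraticMap.polar Q x p +
      β * QuadraticMap.polar Q x y + α * β * QuadraticMap.polar Q p y := by
  rw [quad_expand1, quad_expand1, QuadraticMap.polar_add_left, QuadraticMap.polar_smul_left,
    smul_eq_mul]
  ring

theorem quad_key [FiniteDimensional F V] (Q : QuadraticForm F V)
    (hQ : (QuadraticMap.polarBilin Q).Nondegenerate)
    (H : Submodule F V) (u : V) (f : V →ₗ[F] V)
    (hP : (∀ x ∈ H ⊔ Submodule.span F {u}, Q (f x) = Q x) ∧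
      (∀ x ∈ H ⊔ Submodule.span F {u}, f x = 0 → x = 0))
    (hf : ∀ h ∈ H, f h = h) : ∃ g ∈ isoGroupQ Q, (∀ h ∈ H, g h = h) ∧ g u = f u := by
  obtain ⟨hiso, hinj⟩ := hP
  set B := QuadraticMap.polarBilin Q with hBdef
  have hBa : ∀ x y, B x y = QuadraticMap.polar Q x y := fun x y => rfl
  have huX : u ∈ H ⊔ Submodule.span F {u} :=
    Submodule.mem_sup_right (Submodule.mem_span_singleton_self u)
  have hHX : ∀ h ∈ H, h ∈ H ⊔ Submodule.span F {u} := fun h hh => Submodule.mem_sup_left hh
  by_cases huH : u ∈ H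
  · exact ⟨1, (isoGroupQ Q).one_mem, fun _ _ => rfl, (hf u huH).symm⟩
  set u' := f u with hu'def
  set p := u' - u with hp
  have hu'p : u' = u + p := by rw [hp]; abel
  have hu' : u' ∉ H := by
    intro h
    have h1 : f (u' - u) = 0 := by rw [map_sub, hf u' h, sub_self]
    have h2 := hinj (u' - u) (Submodule.sub_mem _ (hHX _ h) huX) h1
    apply huH
    rw [← sub_eq_zero.mp h2]
    exact h
  have hph : ∀ h ∈ H, B p h = 0 := by
    intro h hh
    have e1 := hiso (u + h) (Submodule.add_mem _ huX (hHX h hh))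
    rw [map_add, hf h hh, QuadraticMap.map_add Q, QuadraticMap.map_add Q, hiso u huX] at e1
    have e2 : QuadraticMap.polar Q u' h = QuadraticMap.polar Q u h := by linear_combination e1
    rw [hp, map_sub, LinearMap.sub_apply, hBa, hBa, e2, sub_self]
  have hQp : Q p + QuadraticMap.polar Q u p = 0 := by
    have := hiso u huX
    rw [← hu'def, hu'p, QuadraticMap.map_add Q] at this
    linear_combination this
  by_cases hd : Q p = 0
  · have hup : QuadraticMap.polar Q u p = 0 := by rw [hd, zero_add] at hQp; exact hQp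
    have hpu : B p u = 0 := by rw [hBa, QuadraticMap.polar_comm]; exact hup
    obtain ⟨y, hyH, hyu, hyu'⟩ := exists_sep_two (σ := RingHom.id F) (fun _ => rfl) B hQ.2 H u u'
      huH hu'
    have hκ : 1 + B y p = B y u' := by
      rw [hp, map_sub, hyu]; ring
    have hκ0 : 1 + B y p ≠ 0 := by rw [hκ]; exact hyu'
    set s := - 1 / (1 + B y p) with hs
    have h1 : s * B y p + 1 + s = 0 := by
      rw [hs]; field_simp; ring
    obtain ⟨e, he, hex⟩ := exists_equiv_of_isomQ Q hQ
      (LinearMap.id + (B y + (s * Q y) • B p).smulRight p + (s • B p).smulRight y)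
      (fun x => by
        have e0 : (LinearMap.id + (B y + (s * Q y) • B p).smulRight p + (s • B p).smulRight y :
            V →ₗ[F] V) x =
          x + (B y x + (s * Q y) * B p x) • p + (s * B p x) • y := by
          simp
        rw [e0, quad_expand2, hd, QuadraticMap.polar_comm Q x p, QuadraticMap.polar_comm Q x y,
          QuadraticMap.polar_comm Q p y, ← hBa, ← hBa, ← hBa]
        linear_combination (B y x * B p x + s * Q y * B p x * B p x) * h1)
    refine ⟨e, he, fun h hh => ?_, ?_⟩
    · rw [hex]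
      simp [hyH h hh, hph h hh]
    · rw [hex]
      simp [hyu, hpu, hu'p]
  · obtain ⟨e, he, hex⟩ := exists_equiv_of_isomQ Q hQ
      (LinearMap.id + ((-(Q p)⁻¹) • B p).smulRight p)
      (fun x => by
        have e0 : (LinearMap.id + ((-(Q p)⁻¹) • B p).smulRight p : V →ₗ[F] V) x =
          x + (-(Q p)⁻¹ * B p x) • p := by
          simp
        rw [e0, quad_expand1, QuadraticMap.polar_comm Q x p, ← hBa]
        field_simp
        ring)
    refine ⟨e, he, fun h hh => ?_, ?_⟩
    · rw [hex]
      simp [hph h hh]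
    · rw [hex]
      have hpu : B p u = - Q p := by
        rw [hBa, QuadraticMap.polar_comm]; linear_combination hQp
      simp [hpu, hd, hu'p]

theorem witt_quad [FiniteDimensional F V] (Q : QuadraticForm F V)
    (hQ : (QuadraticMap.polarBilin Q).Nondegenerate)
    (X Y : Submodule F V) (φ : X ≃ₗ[F] Y) (hφ : ∀ x : X, Q (φ x : V) = Q (x : V)) :
    ∃ g : V ≃ₗ[F] V, (∀ v : V, Q (g v) = Q v) ∧ ∀ x : X, g (x : V) = (φ x : V) := by
  obtain ⟨f, hf⟩ := LinearMap.exists_extend (Y.subtype ∘ₗ φ.toLinearMap)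
  have hfx : ∀ x : X, f (x : V) = (φ x : V) := fun x => LinearMap.congr_fun hf x
  obtain ⟨S, hS⟩ := (IsNoetherian.noetherian X : X.FG)
  obtain ⟨g, hg, hgx⟩ := witt_generic (isoGroupQ Q)
    (fun X f => (∀ x ∈ X, Q (f x) = Q x) ∧ (∀ x ∈ X, f x = 0 → x = 0))
    (fun X X' f hle h => ⟨fun x hx => h.1 x (hle hx), fun x hx => h.2 x (hle hx)⟩)
    (fun X f g hg h => ⟨fun x hx => by
        show Q (g (f x)) = _
        rw [hg, h.1 x hx], fun x hx h0 => h.2 x hx (by
        have h0' : g (f x) = 0 := h0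
        exact (LinearEquiv.map_eq_zero_iff g).mp h0')⟩)
    (fun H u f hP hf => quad_key Q hQ H u f hP hf)
    S ⊥ f (by
      rw [bot_sup_eq, hS]
      refine ⟨fun x hx => ?_, fun x hx h0 => ?_⟩
      · rw [hfx ⟨x, hx⟩]
        exact hφ ⟨x, hx⟩
      · rw [hfx ⟨x, hx⟩] at h0
        have h1 : φ ⟨x, hx⟩ = 0 := Subtype.ext h0
        have h2 := (LinearEquiv.map_eq_zero_iff φ).mp h1
        exact congrArg Subtype.val h2)
    (fun h hh => by rw [(Submodule.mem_bot F).mp hh, map_zero])
  refine ⟨g, hg, fun x => ?_⟩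
  rw [hgx x (by rw [bot_sup_eq, hS]; exact x.2), hfx]

end Cfsg.Agent.Lib.Helper5
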